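import Cfsg.Agent.CharBasics.Avg
import Cfsg.Agent.Blocks.Local

/-!
# Sums over the layers of a cyclic group of prime power order
-/

set_option autoImplicit false
set_option linter.unusedSectionVars false

namespace CfsgLib.CyclicExc

open Cfsg CfsgLib CfsgLib.CharBasics CfsgLib.Blocks Polynomial

variable {p : ℕ}

theorem coprimeResidues_prime_pow (hp : p.Prime) (c : ℕ) :
    coprimeResidues (p ^ (c + 1)) = (Finset.range (p ^ (c + 1))).filter fun j => ¬ p ∣ j := by
  refine Finset.filter_congr fun j _ => ?_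
  rw [Nat.coprime_pow_right_iff (Nat.succ_pos c), Nat.coprime_comm, hp.coprime_iff_not_dvd]

theorem range_multiples (hp : p.Prime) (c : ℕ) :
    ((Finset.range (p ^ (c + 1))).filter fun j => p ∣ j) = (Finset.range (p ^ c)).image (p * ·) := by
  ext j
  simp only [Finset.mem_filter, Finset.mem_range, Finset.mem_image]
  constructor
  · rintro ⟨hj, k, rfl⟩
    rw [pow_succ'] at hj
    exact ⟨k, Nat.lt_of_mul_lt_mul_left hj, rfl⟩
  · rintro ⟨k, hk, rfl⟩
    exact ⟨by rw [pow_succ']; exact Nat.mul_lt_mul_of_pos_left hk hp.pos, dvd_mul_right p k⟩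

theorem sum_range_split (hp : p.Prime) {A : Type*} [AddCommMonoid A] (c : ℕ) (f : ℕ → A) :
    ∑ j ∈ Finset.range (p ^ (c + 1)), f j =
      ∑ j ∈ coprimeResidues (p ^ (c + 1)), f j + ∑ j ∈ Finset.range (p ^ c), f (p * j) := by
  rw [← Finset.sum_filter_add_sum_filter_not (Finset.range (p ^ (c + 1))) (fun j => p ∣ j), add_comm,
    coprimeResidues_prime_pow hp, range_multiples hp,
    Finset.sum_image fun a _ b _ h => Nat.eq_of_mul_eq_mul_left hp.pos h]

/-- The layers. -/
theorem sum_layers (hp : p.Prime) {A : Type*} [AddCommMonoid A] : ∀ (a : ℕ) (f : ℕ → A),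
    ∑ s ∈ Finset.range (p ^ a), f s =
      f 0 + ∑ i ∈ Finset.range a, ∑ j ∈ coprimeResidues (p ^ (a - i)), f (p ^ i * j) := by
  intro a
  induction a with
  | zero => intro f; simp
  | succ a ih =>
    intro f
    rw [sum_range_split hp, ih (fun s => f (p * s)), Finset.sum_range_succ']
    simp only [mul_zero, pow_zero, one_mul, Nat.sub_zero, Nat.add_sub_add_right, ← mul_assoc, ← pow_succ']
    abel

theorem card_coprimeResidues (hp : p.Prime) (c : ℕ) :
    (coprimeResidues (p ^ (c + 1))).card + p ^ c = p ^ (c + 1) := by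
  have h := sum_range_split hp c (fun _ => (1 : ℕ))
  simp only [Finset.sum_const, Finset.card_range, smul_eq_mul, mul_one] at h
  exact h.symm

theorem geom_root {x : ℂ} {N : ℕ} (hx : x ^ N = 1) [Decidable (x = 1)] :
    ∑ j ∈ Finset.range N, x ^ j = if x = 1 then (N : ℂ) else 0 := by
  split_ifs with h
  · simp [h]
  · rw [geom_sum_eq h, hx, sub_self, zero_div]

/-- The sum of a root of unity over the residues prime to `p`. -/
theorem sum_coprime_pow (hp : p.Prime) (c : ℕ) {x : ℂ} (hx : x ^ p ^ (c + 1) = 1) [Decidable (x = 1)]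
    [Decidable (x ^ p = 1)] :
    ∑ j ∈ coprimeResidues (p ^ (c + 1)), x ^ j =
      (if x = 1 then ((p ^ (c + 1) : ℕ) : ℂ) else 0) - if x ^ p = 1 then ((p ^ c : ℕ) : ℂ) else 0 := by
  have h := sum_range_split hp c (fun j => x ^ j)
  rw [geom_root hx] at h
  simp only [pow_mul] at h
  rw [geom_root (x := x ^ p) (by rwa [← pow_mul, ← pow_succ'])] at h
  linear_combination -h

theorem exists_int_sum_root (hp : p.Prime) (c : ℕ) {x : ℂ} (hx : x ^ p ^ c = 1) :
    ∃ z : ℤ, ∑ j ∈ coprimeResidues (p ^ c), x ^ j = (z : ℂ) := by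
  classical
  cases c with
  | zero =>
    refine ⟨(coprimeResidues (p ^ 0)).card, ?_⟩
    rw [pow_zero, pow_one] at hx
    simp [hx]
  | succ c =>
    rw [sum_coprime_pow hp c hx]
    split_ifs
    · exact ⟨(p ^ (c + 1) : ℕ) - (p ^ c : ℕ), by push_cast; ring⟩
    · exact ⟨(p ^ (c + 1) : ℕ), by push_cast; ring⟩
    · exact ⟨- ((p ^ c : ℕ) : ℤ), by push_cast; ring⟩
    · exact ⟨0, by simp⟩

/-- The sum over the primitive roots of an integral polynomial is an integer. -/
theorem exists_int_sum_aeval (hp : p.Prime) (c : ℕ) (Q : ℤ[X]) :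
    ∃ z : ℤ, ∑ j ∈ coprimeResidues (p ^ c), aeval (zetaRoot (p ^ c) ^ j) Q = (z : ℂ) := by
  have hx : ∀ n : ℕ, (zetaRoot (p ^ c) ^ n) ^ p ^ c = 1 := fun n => by
    rw [← pow_mul, mul_comm, pow_mul, (zetaRoot_prim (pow_ne_zero _ hp.ne_zero)).pow_eq_one, one_pow]
  choose z hz using fun n : ℕ => exists_int_sum_root hp c (hx n)
  refine ⟨∑ n ∈ Q.support, Q.coeff n * z n, ?_⟩
  simp only [aeval_eq_sum_range, zsmul_eq_mul]
  rw [Finset.sum_comm]
  rw [Finset.sum_subset (s₁ := Q.support) (s₂ := Finset.range (Q.natDegree + 1))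
    Polynomial.supp_subset_range_natDegree_succ (fun n _ hn => by
      rw [Polynomial.notMem_support_iff.1 hn, zero_mul])]
  push_cast
  refine Finset.sum_congr rfl fun n _ => ?_
  rw [← hz n, Finset.mul_sum]
  exact Finset.sum_congr rfl fun j _ => by rw [← pow_mul, ← pow_mul, mul_comm j n]

/-- An integer divided by a power of `p` lies in the local ring only as an integer. -/
theorem dvd_of_memLocalRing_div {M : Ideal AlgInt} (hM : IsPModular p M) : ∀ (k : ℕ) (z : ℤ),
    MemLocalRing M ((z : ℂ) / (p : ℂ) ^ k) → (p : ℤ) ^ k ∣ z := by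
  intro k
  induction k with
  | zero => intro z _; simp
  | succ k ih =>
    intro z hz
    have hp0 : (p : ℂ) ≠ 0 := Nat.cast_ne_zero.2 hM.1.ne_zero
    have h1 : MemLocalIdeal M (z : ℂ) := by
      have := memLocalIdeal_mul_right hM ((memLocalIdeal_natCast_iff hM (p ^ (k + 1))).2 (dvd_pow_self p k.succ_ne_zero)) hz
      push_cast at this
      rwa [mul_div_cancel₀ _ (pow_ne_zero _ hp0)] at this
    obtain ⟨w, rfl⟩ := (memLocalIdeal_intCast_iff hM z).1 h1
    rw [pow_succ']
    refine mul_dvd_mul_left _ (ih w ?_)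
    rwa [Int.cast_mul, Int.cast_natCast, pow_succ', mul_div_mul_left _ _ hp0] at hz

end CfsgLib.CyclicExc
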