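import Mathlib.Algebra.BigOperators.Group.Finset.Basic
import Mathlib.Data.Fintype.Card
import Mathlib.Data.Int.Basic
import Mathlib.Tactic

/-!
# Integer vectors with the Gram matrix of exceptional characters
-/

set_option autoImplicit false
set_option linter.unusedSectionVars false

namespace CfsgLib.CyclicExc

variable {ι J : Type*} [Fintype ι] [DecidableEq ι] [Fintype J] [DecidableEq J]

/-- An integer vector of square length two and degree zero is a difference of two unit vectors. -/
theorem exists_pair {u d : ι → ℤ} (hd : ∀ x, 0 < d x) (h2 : ∑ x, u x * u x = 2) (h0 : ∑ x, u x * d x = 0) :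
    ∃ a b, a ≠ b ∧ ∀ x, u x = (if x = a then 1 else 0) - if x = b then 1 else 0 := by
  classical
  set S := Finset.univ.filter fun x => u x ≠ 0 with hS
  have hle : ∀ x, u x * u x ≤ 2 := fun x => h2 ▸
    Finset.single_le_sum (f := fun y => u y * u y) (fun y _ => mul_self_nonneg (u y)) (Finset.mem_univ x)
  have hone : ∀ x, u x ≠ 0 → u x = 1 ∨ u x = -1 := fun x hx => by
    have h := hle x
    have : u x < 2 := by nlinarith
    have : -2 < u x := by nlinarith
    omega
  have hcard : S.card = 2 := by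
    have : ((S.card : ℕ) : ℤ) = 2 := by
      rw [← h2, ← Finset.sum_subset (Finset.subset_univ S) fun x _ hx => by simp [hS] at hx; simp [hx],
        Finset.sum_congr rfl (g := fun _ => (1 : ℤ)) fun x hx => by
          rcases hone x (Finset.mem_filter.1 hx).2 with h | h <;> simp [h]]
      simp
    exact_mod_cast this
  obtain ⟨a, b, hab, hS2⟩ := Finset.card_eq_two.1 hcard
  have hout : ∀ x, x ≠ a → x ≠ b → u x = 0 := fun x hxa hxb => by
    by_contra h
    have : x ∈ S := Finset.mem_filter.2 ⟨Finset.mem_univ _, h⟩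
    simp [hS2, hxa, hxb] at this
  have ha : u a ≠ 0 := (Finset.mem_filter.1 (show a ∈ S by simp [hS2])).2
  have hb : u b ≠ 0 := (Finset.mem_filter.1 (show b ∈ S by simp [hS2])).2
  have hsum : u a * d a + u b * d b = 0 := by
    rw [← h0, Fintype.sum_eq_add a b hab (fun x hx => by rw [hout x hx.1 hx.2, zero_mul])]
  have key : ∀ a b : ι, a ≠ b → (∀ x, x ≠ a → x ≠ b → u x = 0) → u a = 1 → u b = -1 →
      ∀ x, u x = (if x = a then 1 else 0) - if x = b then 1 else 0 := fun a b hab hout h1 h2 x => by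
    by_cases hxa : x = a
    · subst hxa; simp [hab, h1]
    · by_cases hxb : x = b
      · subst hxb; simp [hxa, h2]
      · simp [hxa, hxb, hout x hxa hxb]
  rcases hone a ha with h | h <;> rcases hone b hb with h' | h'
  · rw [h, h'] at hsum; linarith [hd a, hd b]
  · exact ⟨a, b, hab, key a b hab hout h h'⟩
  · exact ⟨b, a, hab.symm, key b a hab.symm (fun x h1 h2 => hout x h2 h1) h' h⟩
  · rw [h, h'] at hsum; linarith [hd a, hd b]

/-- Inner products of differences of unit vectors. -/
theorem sum_pair_mul (a b c f : ι) :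
    ∑ x, ((if x = a then (1 : ℤ) else 0) - if x = b then 1 else 0) *
      ((if x = c then 1 else 0) - if x = f then 1 else 0) =
      (if a = c then 1 else 0) - (if a = f then 1 else 0) - (if b = c then 1 else 0) + if b = f then 1 else 0 := by
  simp [sub_mul, mul_sub, Finset.sum_sub_distrib, eq_comm]
  ring

/-- Vectors with the Gram matrix `1 + e J` and degree zero. -/
theorem exists_exceptional {e : ℕ} (v : J → ι → ℤ) {d : ι → ℤ} (hd : ∀ x, 0 < d x)
    (hcard : Fintype.card ι = e + Fintype.card J) (hJ : 0 < Fintype.card J)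
    (hgram : ∀ i j, ∑ x, v i x * v j x = (if i = j then 1 else 0) + (e : ℤ))
    (hzero : ∀ x, ∃ i, v i x ≠ 0) (hdeg : ∀ i, ∑ x, v i x * d x = 0) :
    ∃ (f : J → ι) (ε : ℤ) (w : ι → ℤ), Function.Injective f ∧ (ε = 1 ∨ ε = -1) ∧
      (∀ x, (∀ i, x ≠ f i) → w x = 1 ∨ w x = -1) ∧ (∀ i, w (f i) = 0) ∧
      ∀ i x, v i x = w x + ε * if x = f i then 1 else 0 := by
  classical
  obtain ⟨i₀⟩ := Fintype.card_pos_iff.1 hJ
  have hones : ∀ (S : Finset ι) (g : ι → ℤ), (∀ x ∈ S, g x ≠ 0) → ∑ x ∈ S, g x * g x = S.card →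
      ∀ x ∈ S, g x = 1 ∨ g x = -1 := by
    intro S g hg hs x hx
    have h1 : ∀ y ∈ S, 1 ≤ g y * g y := fun y hy => by have := mul_self_pos.2 (hg y hy); omega
    have h2 := (Finset.sum_eq_sum_iff_of_le h1).1 (by rw [hs]; simp)
    exact Int.eq_one_or_neg_one_of_mul_eq_one (h2 x hx).symm
  by_cases hm : Fintype.card J = 1
  · have huniq : ∀ i, i = i₀ := fun i => (Fintype.card_le_one_iff.1 hm.le) i i₀
    have hv : ∀ x, v i₀ x ≠ 0 := fun x => by
      obtain ⟨i, hi⟩ := hzero x
      rwa [huniq i] at hi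
    obtain ⟨x₀⟩ : Nonempty ι := Fintype.card_pos_iff.1 (by omega)
    have h1 := hones Finset.univ (v i₀) (fun x _ => hv x) (by
      rw [hgram, if_pos rfl, Finset.card_univ, hcard, hm]; push_cast; ring)
    refine ⟨fun _ => x₀, v i₀ x₀, fun x => if x = x₀ then 0 else v i₀ x, fun a b _ => (huniq a).trans (huniq b).symm,
      h1 x₀ (Finset.mem_univ _), fun x hx => ?_, fun i => if_pos rfl, fun i x => ?_⟩
    · simp only [if_neg (hx i₀)]
      exact h1 x (Finset.mem_univ _)
    · rw [huniq i]
      by_cases hx : x = x₀ <;> simp [hx]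
  have hm2 : 2 ≤ Fintype.card J := by omega
  let K := {i : J // i ≠ i₀}
  have hu2 : ∀ i : K, ∑ x, (v i₀ x - v i.1 x) * (v i₀ x - v i.1 x) = 2 := fun i => by
    simp only [sub_mul, mul_sub, Finset.sum_sub_distrib, hgram, if_neg i.2, if_neg (Ne.symm i.2), if_true]
    ring
  have hu1 : ∀ i k : K, i ≠ k → ∑ x, (v i₀ x - v i.1 x) * (v i₀ x - v k.1 x) = 1 := fun i k hik => by
    simp only [sub_mul, mul_sub, Finset.sum_sub_distrib, hgram, if_neg i.2, if_neg (Ne.symm k.2), if_true,
      if_neg (fun h => hik (Subtype.ext h) : i.1 ≠ k.1)]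
    ring
  choose hh ht hne hu using fun i : K => exists_pair hd (hu2 i) (by
    simp only [sub_mul, Finset.sum_sub_distrib, hdeg, sub_zero])
  have hinner : ∀ i k : K, i ≠ k → (hh i = hh k ∧ ht i ≠ ht k) ∨ (hh i ≠ hh k ∧ ht i = ht k) := by
    intro i k hik
    have h := hu1 i k hik
    rw [Finset.sum_congr rfl fun x _ => by rw [hu i x, hu k x], sum_pair_mul] at h
    by_cases h1 : hh i = hh k <;> by_cases h2 : ht i = ht k
    · exfalso
      rw [if_pos h1, if_pos h2, if_neg (h2 ▸ hne i), if_neg (fun h3 => hne i (h1.trans h3.symm))] at h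
      norm_num at h
    · exact Or.inl ⟨h1, h2⟩
    · exact Or.inr ⟨h1, h2⟩
    · exfalso
      rw [if_neg h1, if_neg h2] at h
      split_ifs at h <;> omega
  obtain ⟨x₀, σ, g, hσ, hg0, hginj, hg⟩ : ∃ (x₀ : ι) (σ : ℤ) (g : K → ι), (σ = 1 ∨ σ = -1) ∧ (∀ i, x₀ ≠ g i) ∧
      Function.Injective g ∧
      ∀ i x, v i₀ x - v i.1 x = σ * ((if x = x₀ then 1 else 0) - if x = g i then 1 else 0) := by
    obtain ⟨i₁⟩ : Nonempty K := by
      rw [← Fintype.card_pos_iff, Fintype.card_subtype_compl, Fintype.card_subtype_eq]; omega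
    by_cases hA : ∀ k, hh k = hh i₁
    · refine ⟨hh i₁, 1, ht, Or.inl rfl, fun i => hA i ▸ hne i, fun i k h => ?_, fun i x => by
        rw [hu i x, hA i, one_mul]⟩
      by_contra hik
      rcases hinner i k hik with ⟨-, h'⟩ | ⟨h', -⟩
      · exact h' h
      · exact h' ((hA i).trans (hA k).symm)
    · push Not at hA
      obtain ⟨k, hk⟩ := hA
      have hkt : ht k = ht i₁ := ((hinner k i₁ fun h => hk (by rw [h])).resolve_left fun h => hk h.1).2
      have hB : ∀ l, ht l = ht i₁ := by
        intro l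
        by_contra hl
        have hlh : hh l = hh i₁ := ((hinner l i₁ fun h => hl (by rw [h])).resolve_right fun h => hl h.2).1
        rcases hinner k l (fun h => hk (h ▸ hlh)) with ⟨h, -⟩ | ⟨-, h⟩
        · exact hk (h.trans hlh)
        · exact hl (h.symm.trans hkt)
      refine ⟨ht i₁, -1, hh, Or.inr rfl, fun i => hB i ▸ (hne i).symm, fun i k h => ?_, fun i x => by
        rw [hu i x, hB i]; ring⟩
      by_contra hik
      rcases hinner i k hik with ⟨-, h'⟩ | ⟨h', -⟩
      · exact h' ((hB i).trans (hB k).symm)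
      · exact h' h
  let f : J → ι := fun i => if h : i = i₀ then x₀ else g ⟨i, h⟩
  have hf0 : f i₀ = x₀ := dif_pos rfl
  have hfK : ∀ i (h : i ≠ i₀), f i = g ⟨i, h⟩ := fun i h => dif_neg h
  have hfinj : Function.Injective f := by
    intro i k h
    by_cases hi : i = i₀ <;> by_cases hk : k = i₀
    · rw [hi, hk]
    · rw [hi, hf0, hfK k hk] at h; exact absurd h (hg0 _)
    · rw [hk, hf0, hfK i hi] at h; exact absurd h.symm (hg0 _)
    · rw [hfK i hi, hfK k hk] at h; exact congrArg Subtype.val (hginj h)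
  set z : ι → ℤ := fun x => v i₀ x - σ * if x = x₀ then 1 else 0 with hz
  have hvz : ∀ i x, v i x = z x + σ * if x = f i then 1 else 0 := by
    intro i x
    by_cases hi : i = i₀
    · rw [hi, hf0, hz]; ring
    · rw [hfK i hi]
      linear_combination -(hg ⟨i, hi⟩ x)
  have hσ2 : σ * σ = 1 := by rcases hσ with rfl | rfl <;> rfl
  have hG : ∀ i j, ∑ x, z x * z x + σ * z (f i) + σ * z (f j) = (e : ℤ) := by
    intro i j
    have h := hgram i j
    simp only [hvz] at h
    simp only [add_mul, mul_add, Finset.sum_add_distrib, mul_ite, ite_mul, mul_one, mul_zero, zero_mul,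
      Finset.sum_ite_eq', Finset.mem_univ, if_true, hfinj.eq_iff] at h
    by_cases hij : i = j
    · subst hij; simp only [if_true, hσ2] at h; linarith
    · simp only [hij, Ne.symm hij, if_false] at h; linarith
  obtain ⟨c, hcz⟩ : ∃ c : ℤ, ∀ i, σ * z (f i) = c := ⟨σ * z (f i₀), fun i => by
    linarith [hG i i₀, hG i₀ i₀]⟩
  have hzz : ∑ x, z x * z x = (e : ℤ) - 2 * c := by linarith [hG i₀ i₀, hcz i₀]
  set O := Finset.univ.filter fun x => ∀ i, x ≠ f i with hO
  have hsplit : ∑ x, z x * z x = ∑ x ∈ O, z x * z x + (Fintype.card J : ℤ) * (c * c) := by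
    rw [← Finset.sum_filter_add_sum_filter_not Finset.univ (fun x => ∀ i, x ≠ f i) (fun x => z x * z x)]
    congr 1
    rw [show (Finset.univ.filter fun x => ¬ ∀ i, x ≠ f i) = Finset.univ.image f by
      ext x; simp [eq_comm], Finset.sum_image hfinj.injOn]
    rw [Finset.sum_congr rfl (g := fun _ => c * c) fun i _ => by rw [← hcz i]; linear_combination (-(z (f i) * z (f i))) * hσ2]
    simp
  have hOc : (O.card : ℤ) = e := by
    have h1 : O.card + Fintype.card J = Fintype.card ι := by
      rw [← Finset.card_univ (α := ι), ← Finset.card_filter_add_card_filter_not (fun x => ∀ i, x ≠ f i) (s := Finset.univ)]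
      congr 1
      rw [show (Finset.univ.filter fun x => ¬ ∀ i, x ≠ f i) = Finset.univ.image f by
        ext x; simp [eq_comm], Finset.card_image_of_injective _ hfinj, Finset.card_univ]
    omega
  have hzO : ∀ x ∈ O, z x ≠ 0 := by
    intro x hx h
    obtain ⟨i, hi⟩ := hzero x
    exact hi (by rw [hvz, h, if_neg ((Finset.mem_filter.1 hx).2 i), mul_zero, add_zero])
  have hge : (e : ℤ) ≤ ∑ x ∈ O, z x * z x := by
    rw [← hOc, Finset.cast_card]
    exact Finset.sum_le_sum fun x hx => by have := mul_self_pos.2 (hzO x hx); omega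
  have hc : c = 0 ∨ (c = -1 ∧ Fintype.card J = 2) := by
    have hineq : (Fintype.card J : ℤ) * (c * c) + 2 * c ≤ 0 := by linarith
    have hm' : (2 : ℤ) ≤ Fintype.card J := by exact_mod_cast hm2
    by_cases hc0 : c = 0
    · exact Or.inl hc0
    · have h1 : c < 0 := by
        by_contra hcn
        have h4 : 0 < c := lt_of_le_of_ne (not_lt.1 hcn) (Ne.symm hc0)
        nlinarith [mul_pos h4 h4]
      have h2 : (Fintype.card J : ℤ) * (-c) ≤ 2 := by nlinarith
      have h3 : c = -1 := by nlinarith
      subst h3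
      exact Or.inr ⟨rfl, by omega⟩
  rcases hc with rfl | ⟨rfl, hJ2⟩
  · refine ⟨f, σ, z, hfinj, hσ, fun x hx => hones O z hzO ?_ x (Finset.mem_filter.2 ⟨Finset.mem_univ _, hx⟩),
      fun i => ?_, hvz⟩
    · rw [hOc]; linarith
    · rcases hσ with rfl | rfl <;> linarith [hcz i]
  · obtain ⟨a, b, hab, hJu⟩ := Finset.card_eq_two.1 (hJ2 : Finset.univ.card = 2)
    have hswap : ∀ i : J, Equiv.swap a b i ≠ i := fun i => by
      have : i ∈ ({a, b} : Finset J) := hJu ▸ Finset.mem_univ i
      simp only [Finset.mem_insert, Finset.mem_singleton] at this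
      rcases this with rfl | rfl
      · simpa using hab.symm
      · simpa using hab
    have hor : ∀ i k : J, k = i ∨ k = Equiv.swap a b i := fun i k => by
      have h1 : i ∈ ({a, b} : Finset J) := hJu ▸ Finset.mem_univ i
      have h2 : k ∈ ({a, b} : Finset J) := hJu ▸ Finset.mem_univ k
      simp only [Finset.mem_insert, Finset.mem_singleton] at h1 h2
      rcases h1 with rfl | rfl <;> rcases h2 with rfl | rfl <;> simp
    have hzf : ∀ i, z (f i) = -σ := fun i => by rcases hσ with rfl | rfl <;> linarith [hcz i]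
    refine ⟨f ∘ Equiv.swap a b, -σ, fun x => if ∀ i, x ≠ f i then z x else 0,
      hfinj.comp (Equiv.injective _), by rcases hσ with rfl | rfl <;> simp, fun x hx => ?_, fun i => ?_, fun i x => ?_⟩
    · have hx' : ∀ i, x ≠ f i := fun i => by simpa using hx (Equiv.swap a b i)
      simp only [if_pos hx']
      refine hones O z hzO ?_ x (Finset.mem_filter.2 ⟨Finset.mem_univ _, hx'⟩)
      rw [hOc]
      rw [hJ2] at hsplit
      push_cast at hsplit
      linarith
    · exact if_neg fun h => h _ rfl
    · rw [hvz i x]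
      by_cases hx : ∀ k, x ≠ f k
      · simp [hx, hx i, hx (Equiv.swap a b i)]
      · simp only [if_neg hx]
        push Not at hx
        obtain ⟨k, rfl⟩ := hx
        simp only [Function.comp_apply, hfinj.eq_iff, hzf]
        rcases hor i k with rfl | rfl
        · simp [(hswap k).symm]
        · simp [hswap i]

end CfsgLib.CyclicExc
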