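import Cfsg.Agent.Blocks.CyclicExc.Arith
import Cfsg.Agent.Blocks.CyclicExc.Gram
import Mathlib.NumberTheory.LegendreSymbol.AddCharacter

/-!
# The columns of a block with cyclic defect group, abstractly

The products of two members at the subsections are projections of rank one; some member fixed by the Galois group
has all of them equal to one at itself.
-/

set_option autoImplicit false
set_option linter.unusedSectionVars false

namespace CfsgLib.CyclicExc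

open Cfsg CfsgLib CfsgLib.CharBasics Finset
open scoped ComplexConjugate

instance neZero_prime_pow {p a : ℕ} [hp : Fact p.Prime] : NeZero (p ^ a) := ⟨pow_ne_zero _ hp.out.ne_zero⟩

/-- The additive character `s ↦ ζ ^ s`. -/
noncomputable def ee (n : ℕ) [NeZero n] : AddChar (ZMod n) ℂ :=
  AddChar.zmodChar n (zetaRoot_prim (NeZero.ne n)).pow_eq_one

theorem ee_natCast (n : ℕ) [NeZero n] (j : ℕ) : ee n (j : ZMod n) = zetaRoot n ^ j :=
  AddChar.zmodChar_apply' _ j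

theorem ee_primitive (n : ℕ) [NeZero n] : (ee n).IsPrimitive :=
  AddChar.zmodChar_primitive_of_primitive_root n (zetaRoot_prim (NeZero.ne n))

theorem conj_ee (n : ℕ) [NeZero n] (s : ZMod n) : conj (ee n s) = ee n (-s) := by
  rw [AddChar.map_neg_eq_inv, Complex.inv_eq_conj]
  refine Complex.norm_eq_one_of_pow_eq_one (n := n) ?_ (NeZero.ne n)
  rw [← AddChar.map_nsmul_eq_pow, nsmul_eq_mul, ZMod.natCast_self, zero_mul, AddChar.map_zero_eq_one]

/-- The columns, without the members fixed by the Galois group. -/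
structure PreCols (p : ℕ) [Fact p.Prime] (a e : ℕ) (ι : Type*) [Fintype ι] [DecidableEq ι] where
  a_pos : 1 ≤ a
  e_one : 1 ≤ e
  R : Finset (ZMod (p ^ a))
  R_card : R.card = e
  R_one : 1 ∈ R
  R_mul : ∀ r ∈ R, ∀ r' ∈ R, r * r' ∈ R
  R_free : ∀ r ∈ R, ∀ r' ∈ R, ∀ s, s ≠ 0 → r * s = r' * s → r = r'
  N : ZMod (p ^ a) → ι → ι → ℂ
  N_zero : N 0 = 0
  N_conj : ∀ s χ ψ, conj (N s χ ψ) = N s ψ χ
  N_stab : ∀ r ∈ R, ∀ s, N (r * s) = N s
  rank1 : ∀ s ρ χ χ' ψ, N s ρ χ * N s χ' ψ = N s ρ ψ * N s χ' χ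
  total : ∀ s, s ≠ 0 → ∑ χ, N s χ χ = ((p ^ a : ℕ) : ℂ)
  N_ne : ∀ s, s ≠ 0 → ∀ χ, N s χ χ ≠ 0
  Rm : ι → ι → ℂ
  delta : ∀ χ ψ, (if χ = ψ then (1 : ℂ) else 0) = Rm χ ψ + (((p ^ a : ℕ) : ℂ) * (e : ℂ))⁻¹ * ∑ s, N s χ ψ
  Rm_nonneg : ∀ v : ι → ℂ, 0 ≤ (∑ χ, ∑ ψ, conj (v χ) * Rm χ ψ * v ψ).re
  intA : ∀ t χ ψ, ∃ z : ℤ, ∑ s, (ee (p ^ a) (t * s) - 1) * N s χ ψ = ((p ^ a : ℕ) : ℂ) * (z : ℂ)

/-- The columns. -/
structure Cols (p : ℕ) [Fact p.Prime] (a e : ℕ) (ι : Type*) [Fintype ι] [DecidableEq ι] extends PreCols p a e ι where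
  e_le : e ≤ p - 1
  e_two : 2 ≤ e
  F : Finset ι
  F_card : e ≤ F.card
  z : ℕ → ι → ℤ
  Fint : ∀ i, i < a → ∀ j ∈ coprimeResidues (p ^ (a - i)), ∀ χ ∈ F, ∀ ψ ∈ F,
    N ((p ^ i * j : ℕ) : ZMod (p ^ a)) χ ψ = ((z i χ * z i ψ : ℤ) : ℂ)

namespace PreCols

variable {p : ℕ} [hp : Fact p.Prime] {a e : ℕ} {ι : Type*} [Fintype ι] [DecidableEq ι] (D : PreCols p a e ι)
include D

theorem e_pos : (0 : ℝ) < e := by exact_mod_cast (D.e_one : 0 < e)

omit D in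
theorem n_pos : (0 : ℝ) < ((p ^ a : ℕ) : ℝ) := Nat.cast_pos.2 (pow_pos hp.out.pos _)

theorem index_nonempty : Nonempty ι := by
  haveI : Fact (1 < p ^ a) := ⟨Nat.one_lt_pow (by have := D.a_pos; omega) hp.out.one_lt⟩
  by_contra h
  rw [not_nonempty_iff] at h
  have h1 := D.total 1 one_ne_zero
  rw [univ_eq_empty, sum_empty, eq_comm, Nat.cast_eq_zero] at h1
  exact (pow_pos hp.out.pos a).ne' h1

theorem sum_univ {A : Type*} [AddCommMonoid A] (f : ZMod (p ^ a) → A) :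
    ∑ s, f s = f 0 + ∑ i ∈ range a, ∑ j ∈ coprimeResidues (p ^ (a - i)), f ((p ^ i * j : ℕ) : ZMod (p ^ a)) := by
  have h := sum_layers hp.out a (fun s => f (s : ZMod (p ^ a)))
  simp only [Nat.cast_zero] at h
  rw [← h]
  refine (sum_bij (fun (s : ℕ) (_ : s ∈ range (p ^ a)) => (s : ZMod (p ^ a))) (fun _ _ => mem_univ _) (fun s hs t ht hst => ?_)
    (fun s _ => ⟨s.val, mem_range.2 (ZMod.val_lt s), by simp⟩) fun _ _ => rfl).symm
  have := congrArg ZMod.val hst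
  rwa [ZMod.val_natCast_of_lt (mem_range.1 hs), ZMod.val_natCast_of_lt (mem_range.1 ht)] at this

theorem exists_layer {s : ZMod (p ^ a)} (hs : s ≠ 0) :
    ∃ i, i < a ∧ ∃ j ∈ coprimeResidues (p ^ (a - i)), ((p ^ i * j : ℕ) : ZMod (p ^ a)) = s := by
  have hv : s.val ≠ 0 := fun h => hs ((ZMod.val_eq_zero s).1 h)
  obtain ⟨i, m, hm, he⟩ := Nat.exists_eq_pow_mul_and_not_dvd hv p hp.out.ne_one
  have hm0 : m ≠ 0 := fun h => hm (h ▸ dvd_zero p)
  have hi : i < a := (Nat.pow_lt_pow_iff_right hp.out.one_lt).1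
    ((Nat.le_mul_of_pos_right _ (Nat.pos_of_ne_zero hm0)).trans_lt (he ▸ ZMod.val_lt s))
  refine ⟨i, hi, m, mem_filter.2 ⟨mem_range.2 ?_, ?_⟩, by rw [← he, ZMod.natCast_zmod_val]⟩
  · have h := he ▸ ZMod.val_lt s
    rw [← Nat.add_sub_cancel' hi.le, pow_add] at h
    exact Nat.lt_of_mul_lt_mul_left h
  · exact Nat.Coprime.pow_right _ ((hp.out.coprime_iff_not_dvd.2 hm).symm)

theorem R_unit {r : ZMod (p ^ a)} (hr : r ∈ D.R) {s : ZMod (p ^ a)} (hs : s ≠ 0) : r * s ≠ 0 := by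
  intro h
  obtain ⟨χ⟩ := D.index_nonempty
  have h1 := congrFun (congrFun (D.N_stab r hr s) χ) χ
  rw [h, D.N_zero] at h1
  exact D.N_ne s hs _ h1.symm

/-- The orbit of an index. -/
def orb (s : ZMod (p ^ a)) : Finset (ZMod (p ^ a)) := D.R.image (· * s)

theorem self_mem_orb (s : ZMod (p ^ a)) : s ∈ D.orb s := mem_image.2 ⟨1, D.R_one, one_mul s⟩

theorem card_orb {s : ZMod (p ^ a)} (hs : s ≠ 0) : (D.orb s).card = e := by
  rw [orb, card_image_of_injOn fun r hr r' hr' h => D.R_free r hr r' hr' s hs h, D.R_card]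

theorem N_orb {s y : ZMod (p ^ a)} (hy : y ∈ D.orb s) : D.N y = D.N s := by
  obtain ⟨r, hr, rfl⟩ := mem_image.1 hy
  exact D.N_stab r hr s

theorem N_self_im (s : ZMod (p ^ a)) (χ : ι) : D.N s χ χ = ((D.N s χ χ).re : ℂ) :=
  (Complex.conj_eq_iff_re.1 (D.N_conj s χ χ)).symm

theorem N_self_pos {s : ZMod (p ^ a)} (hs : s ≠ 0) (ρ : ι) : 0 < (D.N s ρ ρ).re := by
  have h : (D.N s ρ ρ) * ((p ^ a : ℕ) : ℂ) = ∑ χ, ((Complex.normSq (D.N s χ ρ) : ℝ) : ℂ) := by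
    rw [← D.total s hs, mul_sum]
    refine sum_congr rfl fun χ _ => ?_
    rw [← Complex.mul_conj, D.N_conj, D.rank1 s χ ρ ρ χ, mul_comm]
  rw [← Complex.ofReal_sum, D.N_self_im s ρ, ← Complex.ofReal_natCast, ← Complex.ofReal_mul, Complex.ofReal_inj] at h
  have h0 : 0 ≤ (D.N s ρ ρ).re * ((p ^ a : ℕ) : ℝ) := h ▸ sum_nonneg fun χ _ => Complex.normSq_nonneg _
  have hne : (D.N s ρ ρ).re ≠ 0 := fun h0 => D.N_ne s hs ρ (by rw [D.N_self_im, h0, Complex.ofReal_zero])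
  exact lt_of_le_of_ne (nonneg_of_mul_nonneg_left h0 n_pos) (Ne.symm hne)

/-- The products at one index form a scaled projection. -/
theorem sum_mul_self {s : ZMod (p ^ a)} (hs : s ≠ 0) (χ ρ : ι) :
    ∑ ψ, D.N s χ ψ * D.N s ψ ρ = ((p ^ a : ℕ) : ℂ) * D.N s χ ρ := by
  rw [← D.total s hs, sum_mul]
  exact sum_congr rfl fun ψ _ => by rw [D.rank1 s χ ψ ψ ρ, mul_comm]

/-- The hermitian form at an index. -/
noncomputable def quad (s : ZMod (p ^ a)) (v : ι → ℂ) : ℝ := (∑ χ, ∑ ψ, conj (v χ) * D.N s χ ψ * v ψ).re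

theorem quad_mul_self {s : ZMod (p ^ a)} (v : ι → ℂ) (ρ : ι) :
    (D.N s ρ ρ).re * D.quad s v = Complex.normSq (∑ ψ, D.N s ρ ψ * v ψ) := by
  have h : D.N s ρ ρ * ∑ χ, ∑ ψ, conj (v χ) * D.N s χ ψ * v ψ =
      ((Complex.normSq (∑ ψ, D.N s ρ ψ * v ψ) : ℝ) : ℂ) := by
    rw [← Complex.mul_conj, map_sum, sum_mul_sum, mul_sum, sum_comm (s := (univ : Finset ι))]
    refine sum_congr rfl fun χ _ => ?_
    rw [mul_sum]
    refine sum_congr rfl fun ψ _ => ?_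
    rw [map_mul, D.N_conj]
    linear_combination -(conj (v χ) * v ψ) * D.rank1 s χ ρ ρ ψ
  rw [D.N_self_im s ρ] at h
  have := congrArg Complex.re h
  rwa [Complex.re_ofReal_mul, Complex.ofReal_re] at this

theorem quad_nonneg (s : ZMod (p ^ a)) (v : ι → ℂ) : 0 ≤ D.quad s v := by
  by_cases hs : s = 0
  · simp [quad, hs, D.N_zero]
  obtain ⟨ρ⟩ := D.index_nonempty
  exact nonneg_of_mul_nonneg_right (by rw [D.quad_mul_self]; exact Complex.normSq_nonneg _) (D.N_self_pos hs ρ)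

theorem norm_eq (v : ι → ℂ) : ∑ χ, Complex.normSq (v χ) =
    (∑ χ, ∑ ψ, conj (v χ) * D.Rm χ ψ * v ψ).re + (((p ^ a : ℕ) : ℝ) * (e : ℝ))⁻¹ * ∑ s, D.quad s v := by
  have h : (∑ χ, (Complex.normSq (v χ) : ℂ)) = ∑ χ, ∑ ψ, conj (v χ) * D.Rm χ ψ * v ψ +
      (((p ^ a : ℕ) : ℂ) * (e : ℂ))⁻¹ * ∑ s, ∑ χ, ∑ ψ, conj (v χ) * D.N s χ ψ * v ψ := by
    rw [sum_comm (s := (univ : Finset (ZMod (p ^ a)))), mul_sum, ← sum_add_distrib]
    refine sum_congr rfl fun χ _ => ?_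
    rw [sum_comm, mul_sum, ← sum_add_distrib, Complex.normSq_eq_conj_mul_self]
    calc conj (v χ) * v χ = ∑ ψ, conj (v χ) * (if χ = ψ then (1 : ℂ) else 0) * v ψ := by simp
      _ = _ := sum_congr rfl fun ψ _ => by
        rw [D.delta χ ψ, ← sum_mul, ← mul_sum]
        ring
  have h' := congrArg Complex.re h
  rw [Complex.add_re, ← Complex.ofReal_sum, Complex.ofReal_re,
    show (((p ^ a : ℕ) : ℂ) * (e : ℂ))⁻¹ = (((((p ^ a : ℕ) : ℝ) * (e : ℝ))⁻¹ : ℝ) : ℂ) by push_cast; ring,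
    Complex.re_ofReal_mul] at h'
  simp only [quad, Complex.re_sum] at h' ⊢
  exact h'

theorem sum_quad_le (v : ι → ℂ) : ∑ s, D.quad s v ≤ ((p ^ a : ℕ) : ℝ) * e * ∑ χ, Complex.normSq (v χ) := by
  rw [D.norm_eq v, mul_add, ← mul_assoc, mul_inv_cancel₀ (mul_ne_zero n_pos.ne' D.e_pos.ne'), one_mul]
  exact le_add_of_nonneg_left (mul_nonneg (mul_nonneg n_pos.le D.e_pos.le) (D.Rm_nonneg v))

/-- The projections of different orbits are orthogonal. -/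
theorem orth {s y : ZMod (p ^ a)} (hs : s ≠ 0) (hy : y ∉ D.orb s) (ρ χ : ι) :
    ∑ ψ, D.N y ρ ψ * D.N s ψ χ = 0 := by
  by_cases hy0 : y = 0
  · simp [hy0, D.N_zero]
  set v : ι → ℂ := fun ψ => D.N s ψ χ with hv
  set n : ℝ := ((p ^ a : ℕ) : ℝ) with hn
  have hnorm : ∑ ψ, Complex.normSq (v ψ) = n * (D.N s χ χ).re := by
    have h := D.sum_mul_self hs χ χ
    rw [sum_congr rfl (g := fun ψ => (Complex.normSq (v ψ) : ℂ)) fun ψ _ => by
      rw [hv, Complex.normSq_eq_conj_mul_self, D.N_conj], ← Complex.ofReal_sum, D.N_self_im s χ,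
      ← Complex.ofReal_natCast, ← Complex.ofReal_mul, Complex.ofReal_inj] at h
    exact h
  have hq : ∀ x ∈ D.orb s, D.quad x v = n * (n * (D.N s χ χ).re) := by
    intro x hx
    rw [quad, D.N_orb hx]
    have h : ∑ φ, ∑ ψ, conj (v φ) * D.N s φ ψ * v ψ = ((p ^ a : ℕ) : ℂ) * (((p ^ a : ℕ) : ℂ) * D.N s χ χ) := by
      rw [sum_congr rfl (g := fun φ => ((p ^ a : ℕ) : ℂ) * (D.N s χ φ * D.N s φ χ)) fun φ _ => by
        simp only [hv, D.N_conj, mul_assoc, ← mul_sum, D.sum_mul_self hs]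
        ring, ← mul_sum, D.sum_mul_self hs]
    rw [h, D.N_self_im s χ, ← Complex.ofReal_natCast, ← Complex.ofReal_mul, ← Complex.ofReal_mul, Complex.ofReal_re, Complex.ofReal_re, hn]
  have h := D.norm_eq v
  rw [← sum_sdiff (subset_univ (D.orb s)), mul_add, sum_congr rfl hq, sum_const, D.card_orb hs, nsmul_eq_mul,
    hnorm, ← hn] at h
  have he : (n * (e : ℝ))⁻¹ * ((e : ℝ) * (n * (n * (D.N s χ χ).re))) = n * (D.N s χ χ).re := by
    have := D.e_pos.ne'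
    have : n ≠ 0 := n_pos.ne'
    field_simp
  rw [he] at h
  have h1 : (n * (e : ℝ))⁻¹ * ∑ x ∈ univ \ D.orb s, D.quad x v ≤ 0 := by
    have := D.Rm_nonneg v
    linarith
  have h2 : ∑ x ∈ univ \ D.orb s, D.quad x v = 0 :=
    le_antisymm (nonpos_of_mul_nonpos_right h1 (inv_pos.2 (mul_pos n_pos D.e_pos)))
      (sum_nonneg fun x _ => D.quad_nonneg x v)
  have h3 := (sum_eq_zero_iff_of_nonneg fun x _ => D.quad_nonneg x v).1 h2 y (mem_sdiff.2 ⟨mem_univ _, hy⟩)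
  have h4 := D.quad_mul_self (s := y) v ρ
  rw [h3, mul_zero] at h4
  exact Complex.normSq_eq_zero.1 h4.symm

theorem sum_mul_N {s y : ZMod (p ^ a)} (hs : s ≠ 0) (ρ χ : ι) [Decidable (y ∈ D.orb s)] :
    ∑ ψ, D.N y ρ ψ * D.N s ψ χ = if y ∈ D.orb s then ((p ^ a : ℕ) : ℂ) * D.N s ρ χ else 0 := by
  split_ifs with h
  · rw [D.N_orb h, D.sum_mul_self hs]
  · exact D.orth hs h ρ χ

theorem layer_ne {i j : ℕ} (hi : i < a) (hj : j ∈ coprimeResidues (p ^ (a - i))) :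
    ((p ^ i * j : ℕ) : ZMod (p ^ a)) ≠ 0 := by
  obtain ⟨hj1, hj2⟩ := mem_filter.1 hj
  rw [Ne, ZMod.natCast_eq_zero_iff, show p ^ a = p ^ i * p ^ (a - i) by rw [← pow_add, Nat.add_sub_cancel' hi.le],
    Nat.mul_dvd_mul_iff_left (pow_pos hp.out.pos _)]
  intro hd
  have h1 : p ^ (a - i) = 1 := Nat.dvd_one.1 (hj2.symm.dvd_of_dvd_mul_right (by rwa [one_mul]) )
  exact absurd h1 (Nat.one_lt_pow (by omega) hp.out.one_lt).ne'

theorem layer_inj {i j j' : ℕ} (hi : i < a) (hj : j ∈ coprimeResidues (p ^ (a - i)))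
    (hj' : j' ∈ coprimeResidues (p ^ (a - i)))
    (h : ((p ^ i * j : ℕ) : ZMod (p ^ a)) = ((p ^ i * j' : ℕ) : ZMod (p ^ a))) : j = j' := by
  have hlt : ∀ {x}, x ∈ coprimeResidues (p ^ (a - i)) → p ^ i * x < p ^ a := fun {x} hx => by
    conv_rhs => rw [← Nat.add_sub_cancel' hi.le, pow_add]
    exact Nat.mul_lt_mul_of_pos_left (mem_range.1 (mem_filter.1 hx).1) (pow_pos hp.out.pos _)
  have := congrArg ZMod.val h
  rw [ZMod.val_natCast_of_lt (hlt hj), ZMod.val_natCast_of_lt (hlt hj')] at this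
  exact Nat.eq_of_mul_eq_mul_left (pow_pos hp.out.pos _) this

end PreCols

namespace Cols

open PreCols

variable {p : ℕ} [hp : Fact p.Prime] {a e : ℕ} {ι : Type*} [Fintype ι] [DecidableEq ι] (D : Cols p a e ι)
include D

theorem p_three : 3 ≤ p := by
  have := D.e_le; have := D.e_two; omega

/-- The Galois-fixed members bound the squares on a layer. -/
theorem layer_bound {i : ℕ} (hi : i < a) {χ : ι} (hχ : χ ∈ D.F) :
    ((coprimeResidues (p ^ (a - i))).card : ℤ) * ∑ ψ ∈ D.F, D.z i ψ ^ 2 ≤ (p : ℤ) ^ a * e := by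
  classical
  set L := coprimeResidues (p ^ (a - i)) with hL
  set s : ℕ → ZMod (p ^ a) := fun j => ((p ^ i * j : ℕ) : ZMod (p ^ a)) with hsdef
  set S : ι → ℂ := fun ψ => ∑ j ∈ L, D.N (s j) χ ψ with hS
  have hz : ∀ j ∈ L, D.N (s j) χ χ = ((D.z i χ ^ 2 : ℤ) : ℂ) := fun j hj => by
    rw [hsdef, D.Fint i hi j hj χ hχ χ hχ, sq]
  have hup : ∑ ψ, (Complex.normSq (S ψ) : ℂ) = ((p ^ a : ℕ) : ℂ) * (((D.z i χ ^ 2 : ℤ) : ℂ) *
      ((∑ j ∈ L, (L.filter fun j' => s j' ∈ D.orb (s j)).card : ℕ) : ℂ)) := by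
    simp only [Complex.normSq_eq_conj_mul_self, hS, map_sum, D.N_conj, sum_mul_sum]
    rw [Nat.cast_sum, mul_sum, mul_sum, sum_comm]
    refine sum_congr rfl fun j hj => ?_
    rw [sum_comm]
    calc ∑ j' ∈ L, ∑ ψ, D.N (s j) ψ χ * D.N (s j') χ ψ
        = ∑ j' ∈ L, if s j' ∈ D.orb (s j) then ((p ^ a : ℕ) : ℂ) * D.N (s j) χ χ else 0 :=
          sum_congr rfl fun j' _ => by
            rw [← D.sum_mul_N (D.layer_ne hi hj) χ χ]
            exact sum_congr rfl fun ψ _ => mul_comm _ _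
      _ = _ := by rw [← sum_filter, sum_const, nsmul_eq_mul, hz j hj]; ring
  have hcnt : (∑ j ∈ L, (L.filter fun j' => s j' ∈ D.orb (s j)).card) ≤ L.card * e := by
    refine (sum_le_card_nsmul _ _ e fun j hj => ?_).trans_eq (smul_eq_mul _ _)
    refine le_trans ?_ (D.card_orb (D.layer_ne hi hj)).le
    exact card_le_card_of_injOn s (fun j' hj' => (mem_filter.1 hj').2)
      fun x hx y hy h => D.layer_inj hi (mem_filter.1 hx).1 (mem_filter.1 hy).1 h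
  have hup' : ∑ ψ, Complex.normSq (S ψ) =
      ((p ^ a : ℕ) : ℝ) * (((D.z i χ ^ 2 : ℤ) : ℝ) *
        ((∑ j ∈ L, (L.filter fun j' => s j' ∈ D.orb (s j)).card : ℕ) : ℝ)) := by
    exact_mod_cast hup
  have hlow : ((L.card : ℤ) ^ 2 * (D.z i χ ^ 2 * ∑ ψ ∈ D.F, D.z i ψ ^ 2) : ℤ) ≤
      (p : ℤ) ^ a * (D.z i χ ^ 2 * ((∑ j ∈ L, (L.filter fun j' => s j' ∈ D.orb (s j)).card : ℕ) : ℤ)) := by
    have h := sum_le_sum_of_subset_of_nonneg (subset_univ D.F) (fun ψ _ _ => Complex.normSq_nonneg (S ψ))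
    rw [hup', sum_congr rfl (g := fun ψ => (((L.card : ℤ) * (D.z i χ * D.z i ψ)) ^ 2 : ℝ)) fun ψ hψ => by
      have e1 : S ψ = (((L.card : ℤ) * (D.z i χ * D.z i ψ) : ℤ) : ℂ) := by
        simp only [hS]
        rw [sum_congr rfl fun j hj => D.Fint i hi j hj χ hχ ψ hψ, sum_const, nsmul_eq_mul]
        push_cast
        ring
      rw [e1, ← Complex.ofReal_intCast, Complex.normSq_ofReal]
      push_cast
      ring] at h
    rw [mul_sum, mul_sum]
    have h' : ((∑ ψ ∈ D.F, ((L.card : ℤ) * (D.z i χ * D.z i ψ)) ^ 2 : ℤ) : ℝ) ≤ (((p : ℤ) ^ a * (D.z i χ ^ 2 *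
        ((∑ j ∈ L, (L.filter fun j' => s j' ∈ D.orb (s j)).card : ℕ) : ℤ)) : ℤ) : ℝ) := by
      push_cast at h ⊢; linarith
    refine le_trans (le_of_eq (sum_congr rfl fun ψ _ => by ring)) (Int.cast_le.1 h')
  have hz0 : D.z i χ ≠ 0 := by
    obtain ⟨j, hj⟩ := card_pos.1 (coprimeResidues_card_pos (pow_ne_zero (a - i) hp.out.ne_zero))
    intro h0
    exact D.N_ne _ (D.layer_ne hi hj) χ (by rw [D.Fint i hi j hj χ hχ χ hχ, h0]; simp)
  have hL0 : (0 : ℤ) < L.card := by exact_mod_cast coprimeResidues_card_pos (pow_ne_zero (a - i) hp.out.ne_zero)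
  have hsq : (0 : ℤ) < D.z i χ ^ 2 := by positivity
  have hcnt' : ((∑ j ∈ L, (L.filter fun j' => s j' ∈ D.orb (s j)).card : ℕ) : ℤ) ≤ (L.card : ℤ) * e := by
    exact_mod_cast hcnt
  have hfin := hlow.trans (mul_le_mul_of_nonneg_left (mul_le_mul_of_nonneg_left hcnt' hsq.le) (by positivity))
  refine le_of_mul_le_mul_left (a := (L.card : ℤ) * D.z i χ ^ 2) ?_ (mul_pos hL0 hsq)
  linarith

/-- The successive layers agree modulo a power of `p`. -/
theorem layer_congr {i : ℕ} (hi : i + 1 < a) {χ ψ : ι} (hχ : χ ∈ D.F) (hψ : ψ ∈ D.F) :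
    (p : ℤ) ^ (i + 1) ∣ D.z i χ * D.z i ψ - D.z (i + 1) χ * D.z (i + 1) ψ := by
  classical
  set f : ℕ → ℂ := fun l => ((D.z l χ * D.z l ψ : ℤ) : ℂ) with hf
  set n := p ^ a with hn
  have hz := zetaRoot_prim (NeZero.ne n)
  let V : ℕ → ℕ → ℂ := fun k l => ∑ j ∈ coprimeResidues (p ^ (a - l)), ((zetaRoot n ^ p ^ (k + l)) ^ j - 1)
  have hexp : ∀ k, ∑ s, (ee n ((p ^ k : ℕ) * s) - 1) * D.N s χ ψ = ∑ l ∈ range a, V k l * f l := by
    intro k
    rw [D.sum_univ, D.N_zero, Pi.zero_apply, Pi.zero_apply, mul_zero, zero_add]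
    refine sum_congr rfl fun l hl => ?_
    rw [sum_mul]
    refine sum_congr rfl fun j hj => ?_
    rw [D.Fint l (mem_range.1 hl) j hj χ hχ ψ hψ, ← Nat.cast_mul, ee_natCast, ← pow_mul, ← mul_assoc, ← pow_add]
  have hone : ∀ m, zetaRoot n ^ p ^ m = 1 ↔ a ≤ m := fun m => by
    rw [hz.pow_eq_one_iff_dvd, hn, Nat.pow_dvd_pow_iff_le_right hp.out.one_lt]
  have hV : ∀ k l, l < a → V k l = (if a ≤ k + l then ((p ^ (a - l) : ℕ) : ℂ) else 0) -
      (if a ≤ k + l + 1 then ((p ^ (a - l - 1) : ℕ) : ℂ) else 0) - ((coprimeResidues (p ^ (a - l))).card : ℂ) := by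
    intro k l hl
    obtain ⟨c, hc⟩ : ∃ c, a - l = c + 1 := ⟨a - l - 1, by omega⟩
    simp only [V]
    rw [sum_sub_distrib, sum_const, nsmul_eq_mul, mul_one, hc, Nat.add_sub_cancel,
      sum_coprime_pow hp.out c (by rw [← pow_mul, hz.pow_eq_one_iff_dvd, hn, ← pow_add, Nat.pow_dvd_pow_iff_le_right hp.out.one_lt]; omega)]
    congr 2
    · exact if_congr (hone _) rfl rfl
    · refine if_congr ?_ rfl rfl
      rw [← pow_mul, ← pow_succ, hone]
  obtain ⟨k, hk⟩ : ∃ k, a = i + 1 + (k + 1) := ⟨a - i - 2, by omega⟩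
  have hdiff : ∀ l ∈ range a, V k l * f l - V (k + 1) l * f l =
      (if l = i then ((p ^ (k + 1) : ℕ) : ℂ) * f i else 0) - (if l = i + 1 then ((p ^ (k + 1) : ℕ) : ℂ) * f (i + 1) else 0) := by
    intro l hl
    have hla := mem_range.1 hl
    rw [hV k l hla, hV (k + 1) l hla]
    rcases lt_trichotomy l i with h | h | h
    · rw [if_neg (show ¬ a ≤ k + l by omega), if_neg (show ¬ a ≤ k + l + 1 by omega),
        if_neg (show ¬ a ≤ k + 1 + l by omega), if_neg (show ¬ a ≤ k + 1 + l + 1 by omega), if_neg h.ne,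
        if_neg (by omega)]
      ring
    · subst h
      rw [if_neg (show ¬ a ≤ k + l by omega), if_neg (show ¬ a ≤ k + l + 1 by omega),
        if_neg (show ¬ a ≤ k + 1 + l by omega), if_pos (show a ≤ k + 1 + l + 1 by omega), if_pos rfl,
        if_neg (by omega), show a - l - 1 = k + 1 by omega]
      ring
    · rcases (Nat.succ_le_of_lt h).eq_or_lt with h' | h'
      · subst h'
        have e1 : p ^ (a - (i + 1) - 1) + (coprimeResidues (p ^ (a - (i + 1)))).card = p ^ (a - (i + 1)) := by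
          rw [show a - (i + 1) = k + 1 by omega, Nat.add_sub_cancel, add_comm]
          exact card_coprimeResidues hp.out k
        have e2 : ((p ^ (a - (i + 1) - 1) : ℕ) : ℂ) + (coprimeResidues (p ^ (a - (i + 1)))).card =
            ((p ^ (a - (i + 1)) : ℕ) : ℂ) := by exact_mod_cast e1
        rw [if_neg (show ¬ a ≤ k + (i + 1) by omega), if_pos (show a ≤ k + (i + 1) + 1 by omega),
          if_pos (show a ≤ k + 1 + (i + 1) by omega), if_pos (show a ≤ k + 1 + (i + 1) + 1 by omega),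
          if_neg (by omega), if_pos rfl, show ((p ^ (k + 1) : ℕ) : ℂ) = ((p ^ (a - (i + 1)) : ℕ) : ℂ) by
            rw [show a - (i + 1) = k + 1 by omega]]
        linear_combination (-(f (i + 1))) * e2 + (f (i + 1)) * e2 
      · rw [if_pos (show a ≤ k + l by omega), if_pos (show a ≤ k + l + 1 by omega),
          if_pos (show a ≤ k + 1 + l by omega), if_pos (show a ≤ k + 1 + l + 1 by omega), if_neg (by omega),
          if_neg (by omega)]
        ring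
  obtain ⟨z₁, hz₁⟩ := D.intA ((p ^ k : ℕ) : ZMod n) χ ψ
  obtain ⟨z₂, hz₂⟩ := D.intA ((p ^ (k + 1) : ℕ) : ZMod n) χ ψ
  have h : ((p ^ a : ℕ) : ℂ) * (z₁ : ℂ) - ((p ^ a : ℕ) : ℂ) * (z₂ : ℂ) =
      ((p ^ (k + 1) : ℕ) : ℂ) * (f i - f (i + 1)) := by
    rw [← hz₁, ← hz₂, hexp, hexp, ← sum_sub_distrib, sum_congr rfl hdiff, sum_sub_distrib, sum_ite_eq',
      sum_ite_eq', if_pos (mem_range.2 (by omega)), if_pos (mem_range.2 (by omega)), mul_sub]
  have h' : ((p : ℤ) ^ a * z₁ - (p : ℤ) ^ a * z₂ : ℤ) =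
      (p : ℤ) ^ (k + 1) * (D.z i χ * D.z i ψ - D.z (i + 1) χ * D.z (i + 1) ψ) := by
    rw [← Int.cast_inj (α := ℂ)]
    simp only [hf] at h
    push_cast at h ⊢
    linear_combination h
  refine ⟨z₁ - z₂, mul_left_cancel₀ (pow_ne_zero (k + 1) (Int.natCast_ne_zero.2 hp.out.ne_zero)) ?_⟩
  rw [← h', hk]
  ring

theorem z_ne {i : ℕ} (hi : i < a) {χ : ι} (hχ : χ ∈ D.F) : D.z i χ ≠ 0 := by
  obtain ⟨j, hj⟩ := card_pos.1 (coprimeResidues_card_pos (pow_ne_zero (a - i) hp.out.ne_zero))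
  exact fun h0 => D.N_ne _ (D.layer_ne hi hj) χ (by rw [D.Fint i hi j hj χ hχ χ hχ, h0]; simp)

/-- The bound, without the common power of `p`. -/
theorem layer_bound' {i : ℕ} (hi : i < a) {χ : ι} (hχ : χ ∈ D.F) :
    ((p : ℤ) - 1) * ∑ ψ ∈ D.F, D.z i ψ ^ 2 ≤ (p : ℤ) ^ (i + 1) * e := by
  obtain ⟨c, hc⟩ : ∃ c, a - i = c + 1 := ⟨a - i - 1, by omega⟩
  have h := D.layer_bound hi hχ
  have hcard : ((coprimeResidues (p ^ (a - i))).card : ℤ) = (p : ℤ) ^ c * ((p : ℤ) - 1) := by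
    have := card_coprimeResidues hp.out c
    rw [← hc] at this
    have h' : ((coprimeResidues (p ^ (a - i))).card : ℤ) + (p : ℤ) ^ c = (p : ℤ) ^ (a - i) := by exact_mod_cast this
    rw [hc] at h' ⊢
    linear_combination h' + pow_succ (p : ℤ) c
  rw [hcard, show (p : ℤ) ^ a = (p : ℤ) ^ c * (p : ℤ) ^ (i + 1) by rw [← pow_add]; congr 1; omega, mul_assoc,
    mul_assoc] at h
  exact le_of_mul_le_mul_left h (pow_pos (by exact_mod_cast hp.out.pos) _)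

theorem top_layer {χ : ι} (hχ : χ ∈ D.F) : D.z 0 χ ^ 2 = 1 := by
  have hp3 : (3 : ℤ) ≤ p := by exact_mod_cast D.p_three
  have hep : (e : ℤ) ≤ (p : ℤ) - 1 := by
    have := D.e_le; have := hp.out.pos; omega
  have h := D.layer_bound' (i := 0) D.a_pos hχ
  rw [zero_add, pow_one] at h
  have h1 : ∀ ψ ∈ D.F, (1 : ℤ) ≤ D.z 0 ψ ^ 2 := fun ψ hψ => by
    have := sq_pos_of_ne_zero (D.z_ne D.a_pos hψ); omega
  by_contra hne
  have hbig : (4 : ℤ) ≤ D.z 0 χ ^ 2 := by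
    have h2 : D.z 0 χ ≤ -2 ∨ D.z 0 χ = -1 ∨ D.z 0 χ = 0 ∨ D.z 0 χ = 1 ∨ 2 ≤ D.z 0 χ := by omega
    rcases h2 with h2 | h2 | h2 | h2 | h2
    · nlinarith
    · exact absurd (by rw [h2]; rfl) hne
    · exact absurd h2 (D.z_ne D.a_pos hχ)
    · exact absurd (by rw [h2]; rfl) hne
    · nlinarith
  rw [← add_sum_erase _ _ hχ] at h
  have h2 : ((D.F.erase χ).card : ℤ) ≤ ∑ ψ ∈ D.F.erase χ, D.z 0 ψ ^ 2 := by
    rw [Finset.cast_card]
    exact sum_le_sum fun ψ hψ => h1 ψ (mem_of_mem_erase hψ)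
  rw [card_erase_of_mem hχ, Nat.cast_sub (card_pos.2 ⟨χ, hχ⟩), Nat.cast_succ, Nat.cast_zero, zero_add] at h2
  have h3 : (e : ℤ) ≤ D.F.card := by exact_mod_cast D.F_card
  have h4 := le_trans (mul_le_mul_of_nonneg_left
    (show (e : ℤ) + 3 ≤ D.z 0 χ ^ 2 + ∑ x ∈ D.F.erase χ, D.z 0 x ^ 2 by linarith) (show (0 : ℤ) ≤ (p : ℤ) - 1 by omega)) h
  linarith

omit D in
/-- A number with square congruent to one is congruent to a sign. -/
theorem abs_ge_of_sq {i : ℕ} (hp3 : 3 ≤ p) {w : ℤ} (hd : (p : ℤ) ^ i ∣ w ^ 2 - 1) (hw : w ^ 2 ≠ 1) :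
    ((p : ℤ) ^ i - 1) ^ 2 ≤ w ^ 2 := by
  have hpp : Prime (p : ℤ) := Nat.prime_iff_prime_int.1 hp.out
  rw [show w ^ 2 - 1 = (w - 1) * (w + 1) by ring] at hd
  have key : ∀ x : ℤ, (p : ℤ) ^ i ∣ x → x ≠ 0 → (p : ℤ) ^ i ≤ |x| := fun x hx hx0 =>
    Int.le_of_dvd (abs_pos.2 hx0) ((dvd_abs _ _).2 hx)
  have h2 : ¬ ((p : ℤ) ∣ w - 1 ∧ (p : ℤ) ∣ w + 1) := fun ⟨h1, h2⟩ => by
    have := Int.le_of_dvd two_pos (by simpa [show w + 1 - (w - 1) = 2 by ring] using dvd_sub h2 h1)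
    omega
  have hpow : (1 : ℤ) ≤ (p : ℤ) ^ i := one_le_pow₀ (by omega)
  rw [← sq_abs w]
  refine pow_le_pow_left₀ (by omega) ?_ 2
  by_cases h1 : (p : ℤ) ∣ w - 1
  · have := key _ (hpp.pow_dvd_of_dvd_mul_right i (fun h => h2 ⟨h1, h⟩) hd)
      (fun h => hw (by rw [show w = 1 by omega]; rfl))
    have := abs_sub w 1
    rw [abs_one] at this
    omega
  · have := key _ (hpp.pow_dvd_of_dvd_mul_left i h1 hd)
      (fun h => hw (by rw [show w = -1 by omega]; rfl))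
    have := abs_add_le w 1
    rw [abs_one] at this
    omega

/-- A member good at the second layer is good at all. -/
theorem good_step {χ : ι} (hχ : χ ∈ D.F) : ∀ i, i < a → (1 < a → D.z 1 χ ^ 2 = 1) → D.z i χ ^ 2 = 1 := by
  intro i
  induction i with
  | zero => exact fun _ _ => D.top_layer hχ
  | succ i ih =>
    intro hi h1
    rcases Nat.eq_zero_or_pos i with rfl | hi0
    · exact h1 hi
    by_contra hne
    have hprev := ih (by omega) h1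
    have hd := D.layer_congr hi hχ hχ
    rw [← sq, ← sq, hprev] at hd
    have hge := abs_ge_of_sq (i := i + 1) D.p_three (dvd_sub_comm.1 hd) hne
    have h := D.layer_bound' hi hχ
    have h2 : D.z (i + 1) χ ^ 2 ≤ ∑ ψ ∈ D.F, D.z (i + 1) ψ ^ 2 :=
      single_le_sum (f := fun ψ => D.z (i + 1) ψ ^ 2) (fun ψ _ => sq_nonneg _) hχ
    set P : ℤ := (p : ℤ) ^ (i + 1) with hP
    have hp3 : (3 : ℤ) ≤ p := by exact_mod_cast D.p_three
    have hep : (e : ℤ) ≤ (p : ℤ) - 1 := by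
      have := D.e_le; have := hp.out.pos; omega
    have hPp : (p : ℤ) * p ≤ P := by
      rw [hP, ← sq]; exact pow_le_pow_right₀ (by omega) (by omega)
    have hsucc : (p : ℤ) ^ (i + 1 + 1) = P * p := by rw [pow_succ]
    rw [hsucc] at h
    have h3 : ((p : ℤ) - 1) * (P - 1) ^ 2 ≤ ((p : ℤ) - 1) * (P * p) :=
      calc _ ≤ ((p : ℤ) - 1) * ∑ ψ ∈ D.F, D.z (i + 1) ψ ^ 2 := mul_le_mul_of_nonneg_left (hge.trans h2) (by omega)
        _ ≤ P * p * e := h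
        _ ≤ _ := by rw [mul_comm]; exact mul_le_mul_of_nonneg_right hep (mul_nonneg (by positivity) (by omega))
    have h4 : (P - 1) ^ 2 ≤ P * p := le_of_mul_le_mul_left h3 (by omega)
    nlinarith

/-- Some fixed member is good at the second layer. -/
theorem exists_good_one (ha : 1 < a) : ∃ χ ∈ D.F, D.z 1 χ ^ 2 = 1 := by
  by_contra hcon
  push Not at hcon
  obtain ⟨χ₀, hχ₀⟩ : D.F.Nonempty := card_pos.1 (lt_of_lt_of_le (by norm_num) (D.e_two.trans D.F_card))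
  have hge : ∀ χ ∈ D.F, ((p : ℤ) - 1) ^ 2 ≤ D.z 1 χ ^ 2 := fun χ hχ => by
    have hd := D.layer_congr (i := 0) ha hχ hχ
    rw [zero_add, ← sq, ← sq, D.top_layer hχ] at hd
    have := abs_ge_of_sq (i := 1) D.p_three (dvd_sub_comm.1 hd) (hcon χ hχ)
    rwa [pow_one] at this
  have h := D.layer_bound' ha hχ₀
  have hsum : (D.F.card : ℤ) * ((p : ℤ) - 1) ^ 2 ≤ ∑ ψ ∈ D.F, D.z 1 ψ ^ 2 := by
    rw [← nsmul_eq_mul, ← sum_const]
    exact sum_le_sum hge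
  have hp3 : (3 : ℤ) ≤ p := by exact_mod_cast D.p_three
  have hep : (e : ℤ) ≤ (p : ℤ) - 1 := by
    have := D.e_le; have := hp.out.pos; omega
  have he2 : (2 : ℤ) ≤ e := by exact_mod_cast D.e_two
  have hFe : (e : ℤ) ≤ D.F.card := by exact_mod_cast D.F_card
  have h3 : p = 3 := by
    by_contra h3
    have h4 : (4 : ℤ) ≤ p := by have := D.p_three; omega
    have h5 : ((p : ℤ) - 1) * ((e : ℤ) * ((p : ℤ) - 1) ^ 2) ≤ (p : ℤ) ^ 2 * e :=
      le_trans (mul_le_mul_of_nonneg_left (le_trans (mul_le_mul_of_nonneg_right hFe (sq_nonneg _)) hsum) (by omega)) h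
    have h6 : ((p : ℤ) - 1) * ((p : ℤ) - 1) ^ 2 ≤ (p : ℤ) ^ 2 :=
      le_of_mul_le_mul_left (a := (e : ℤ)) (by linarith) (by omega)
    nlinarith
  have he : e = 2 := by
    have := D.e_le; have := D.e_two; omega
  subst h3 he
  have hF2 : D.F.card = 2 := by
    have := D.F_card
    norm_num at h hsum
    omega
  obtain ⟨χ, ψ, hne, hFF⟩ := card_eq_two.1 hF2
  have hχ : χ ∈ D.F := by simp [hFF]
  have hψ : ψ ∈ D.F := by simp [hFF]
  have hboth : ∀ φ ∈ D.F, D.z 1 φ = 2 ∨ D.z 1 φ = -2 := by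
    intro φ hφ
    have h1 := hge φ hφ
    have h2 : ∑ ξ ∈ D.F, D.z 1 ξ ^ 2 = D.z 1 χ ^ 2 + D.z 1 ψ ^ 2 := by rw [hFF, sum_pair hne]
    have h3 := hge χ hχ
    have h4 := hge ψ hψ
    have h5 : D.z 1 φ ^ 2 ≤ 5 := by
      rw [hFF, Finset.mem_insert, Finset.mem_singleton] at hφ
      norm_num at h h1 h3 h4
      rcases hφ with rfl | rfl <;> linarith
    have : D.z 1 φ < 3 := by nlinarith
    have : -3 < D.z 1 φ := by nlinarith
    have h6 := hcon φ hφ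
    have h7 := D.z_ne ha hφ
    have : D.z 1 φ ≠ 1 := fun h => h6 (by rw [h]; rfl)
    have : D.z 1 φ ≠ -1 := fun h => h6 (by rw [h]; rfl)
    omega
  set v : ι → ℂ := fun φ => if φ ∈ D.F then (D.z 0 φ : ℂ) else 0 with hv
  have hquad : ∀ l, l < a → ∀ j ∈ coprimeResidues (3 ^ (a - l)),
      D.quad ((3 ^ l * j : ℕ) : ZMod (3 ^ a)) v = ((D.z l χ * D.z 0 χ + D.z l ψ * D.z 0 ψ : ℤ) : ℝ) ^ 2 := by
    intro l hl j hj
    rw [quad, ← sum_subset (subset_univ D.F) fun φ _ hφ => by simp [hv, hφ]]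
    rw [sum_congr rfl (g := fun φ => ((D.z 0 φ * D.z l φ * (D.z l χ * D.z 0 χ + D.z l ψ * D.z 0 ψ) : ℤ) : ℂ))
      fun φ hφ => ?_, hFF, sum_pair hne]
    · rw [← Int.cast_add, Complex.intCast_re]; push_cast; ring
    · rw [← sum_subset (subset_univ D.F) fun ξ _ hξ => by simp [hv, hξ],
        sum_congr rfl (g := fun ξ => ((D.z 0 φ * (D.z l φ * D.z l ξ) * D.z 0 ξ : ℤ) : ℂ)) fun ξ hξ => by
          simp only [hv, if_pos hφ, if_pos hξ, map_intCast, D.Fint l hl j hj φ hφ ξ hξ]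
          push_cast; ring, hFF, sum_pair hne]
      push_cast; ring
  have h16 : ((D.z 1 χ * D.z 0 χ + D.z 1 ψ * D.z 0 ψ : ℤ)) ^ 2 = 16 ∧
      ((D.z 0 χ * D.z 0 χ + D.z 0 ψ * D.z 0 ψ : ℤ)) ^ 2 = 4 := by
    have hd := D.layer_congr (i := 0) ha hχ hψ
    have t1 := D.top_layer hχ
    have t2 := D.top_layer hψ
    have a1 : D.z 0 χ = 1 ∨ D.z 0 χ = -1 := Int.eq_one_or_neg_one_of_mul_eq_one (by rwa [← sq])
    have a2 : D.z 0 ψ = 1 ∨ D.z 0 ψ = -1 := Int.eq_one_or_neg_one_of_mul_eq_one (by rwa [← sq])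
    rw [zero_add] at hd
    rcases hboth χ hχ with c1 | c1 <;> rcases hboth ψ hψ with c2 | c2 <;>
      rcases a1 with d1 | d1 <;> rcases a2 with d2 | d2 <;>
      (revert hd; rw [c1, c2, d1, d2]; norm_num)
  have hle := D.sum_quad_le v
  have hvnorm : ∑ φ, Complex.normSq (v φ) = 2 := by
    rw [← sum_subset (subset_univ D.F) fun φ _ hφ => by simp [hv, hφ], hFF, sum_pair hne]
    simp only [hv, if_pos hχ, if_pos hψ, ← Complex.ofReal_intCast, Complex.normSq_ofReal]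
    have t1 := D.top_layer hχ
    have t2 := D.top_layer hψ
    norm_cast
    linarith
  rw [hvnorm, D.sum_univ] at hle
  have hpair : ∑ i ∈ ({0, 1} : Finset ℕ), ∑ j ∈ coprimeResidues (3 ^ (a - i)),
      D.quad ((3 ^ i * j : ℕ) : ZMod (3 ^ a)) v ≤
      ∑ i ∈ range a, ∑ j ∈ coprimeResidues (3 ^ (a - i)), D.quad ((3 ^ i * j : ℕ) : ZMod (3 ^ a)) v :=
    sum_le_sum_of_subset_of_nonneg (fun i hi => mem_range.2 (by simp at hi; omega))
      fun i _ _ => sum_nonneg fun j _ => D.quad_nonneg _ v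
  obtain ⟨c, hc⟩ : ∃ c, a = c + 2 := ⟨a - 2, by omega⟩
  rw [sum_pair zero_ne_one, sum_congr rfl fun j hj => hquad 0 (by omega) j hj,
    sum_congr rfl fun j hj => hquad 1 ha j hj] at hpair
  simp only [sum_const, nsmul_eq_mul] at hpair
  have hc0 : (((coprimeResidues (3 ^ (a - 0))).card : ℕ) : ℝ) = 2 * 3 ^ (c + 1) := by
    have := card_coprimeResidues hp.out (c + 1)
    rw [show a - 0 = c + 1 + 1 by omega]
    have h' : (((coprimeResidues (3 ^ (c + 1 + 1))).card : ℕ) : ℝ) + 3 ^ (c + 1) = 3 ^ (c + 1 + 1) := by exact_mod_cast this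
    linarith [pow_succ (3 : ℝ) (c + 1)]
  have hc1 : (((coprimeResidues (3 ^ (a - 1))).card : ℕ) : ℝ) = 2 * 3 ^ c := by
    have := card_coprimeResidues hp.out c
    rw [show a - 1 = c + 1 by omega]
    have h' : (((coprimeResidues (3 ^ (c + 1))).card : ℕ) : ℝ) + 3 ^ c = 3 ^ (c + 1) := by exact_mod_cast this
    linarith [pow_succ (3 : ℝ) c]
  have h16' : ((D.z 1 χ * D.z 0 χ + D.z 1 ψ * D.z 0 ψ : ℤ) : ℝ) ^ 2 = 16 ∧
      ((D.z 0 χ * D.z 0 χ + D.z 0 ψ * D.z 0 ψ : ℤ) : ℝ) ^ 2 = 4 := ⟨by exact_mod_cast h16.1, by exact_mod_cast h16.2⟩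
  rw [hc0, hc1, h16'.1, h16'.2] at hpair
  have hq0 := D.quad_nonneg (0 : ZMod (3 ^ a)) v
  have hn : ((3 ^ a : ℕ) : ℝ) = 9 * 3 ^ c := by rw [hc]; push_cast; ring
  rw [hn] at hle
  rw [pow_succ] at hpair
  have hpos : (0 : ℝ) < 3 ^ c := by positivity
  simp only [Nat.cast_ofNat] at hle
  linarith

/-- A member whose products with itself are all one. -/
theorem exists_good : ∃ χ₀, ∀ s, s ≠ 0 → D.N s χ₀ χ₀ = 1 := by
  obtain ⟨χ, hχ, hgood⟩ : ∃ χ ∈ D.F, 1 < a → D.z 1 χ ^ 2 = 1 := by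
    by_cases ha : 1 < a
    · obtain ⟨χ, h1, h2⟩ := D.exists_good_one ha
      exact ⟨χ, h1, fun _ => h2⟩
    · obtain ⟨χ, hχ⟩ : D.F.Nonempty := card_pos.1 (lt_of_lt_of_le (by norm_num) (D.e_two.trans D.F_card))
      exact ⟨χ, hχ, fun h => absurd h ha⟩
  refine ⟨χ, fun s hs => ?_⟩
  obtain ⟨i, hi, j, hj, rfl⟩ := D.exists_layer hs
  rw [D.Fint i hi j hj χ hχ χ hχ, ← sq, D.good_step hχ i hi hgood, Int.cast_one]

end Cols

end CfsgLib.CyclicExc
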