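import Cfsg.Agent.Blocks.CyclicRankOne.Count
import Cfsg.Agent.Blocks.RankOne
import Cfsg.Agent.Blocks.Major
import Cfsg.Agent.Blocks.BrauerChar.Galois

/-!
# The subsections of a block with a freely acting inertial quotient on an abelian defect group
-/

set_option autoImplicit false
set_option linter.unusedSectionVars false
set_option linter.style.haveILetI false

namespace CfsgLib.CyclicExc

open Cfsg CfsgLib CfsgLib.Blocks CfsgLib.CharBasics CfsgLib.PairAlg CfsgLib.NilBlock CfsgLib.Star CfsgLib.BrauerFeit Polynomial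
open scoped ComplexConjugate

attribute [local instance] CfsgLib.Blocks.residueField CfsgLib.Blocks.residue_charP

universe u

variable {p : ℕ} [Fact p.Prime] {M : Ideal AlgInt} {G : Type u} [Group G] [Fintype G]

noncomputable local instance instFintypeSubgroupCyclicExc (K : Subgroup G) : Fintype K := Fintype.ofFinite K

noncomputable local instance instFintypeQuotCyclicExc (K : Subgroup G) (L : Subgroup K) : Fintype (K ⧸ L) :=
  Fintype.ofFinite _

variable (hM : IsPModular p M) {B : Set (IrrCharacter G)} {P : Subgroup G}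
  {c : Set (IrrCharacter (Subgroup.centralizer (P : Set G)))} (hmax : IsMaximalBrauerPair p M B P c)

/-- The value at one of the subsection below the pair. -/
noncomputable def DD (u x : G) (χ : G → ℂ) : ℂ := ∑ h, cf hM hmax u h * χ (x * h)

theorem secVal_one (u : G) {χ : G → ℂ} (hχ : IsClassFunction G χ) :
    secVal p u (belb hM hmax u) χ 1 = DD hM hmax u u χ := by
  have h1 : ¬ (p ∣ orderOf ((1 : cen u) : G) ∨ ¬ Commute u ((1 : cen u) : G)) := by
    rw [Subgroup.coe_one, orderOf_one]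
    exact not_or.2 ⟨hM.1.not_dvd_one, fun h => h (Commute.one_right u)⟩
  rw [secVal_eq_SV u _ hχ, SV, if_neg h1]
  simp [DD]

theorem kernel_one (u : G) :
    blockKernel (belb hM hmax u) 1 1 = (Nat.card (cen u) : ℂ) * cf hM hmax u 1 := by
  classical
  have h : cf hM hmax u 1 = blockCoeff (belb hM hmax u) (1 : cen u) := by
    simp only [coef, subgroupBlockCoeff]
    rw [dif_pos (cen u).one_mem]
    rfl
  rw [h, blockCoeff, mul_inv_cancel_left₀ (Nat.cast_ne_zero.2 Nat.card_pos.ne'), blockKernel]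

include hM hmax in
theorem cen_eq_of_zpowers {u v : G} (h : Subgroup.zpowers v = Subgroup.zpowers u) : cen v = cen u := by
  rw [← centralizer_zpowers_eq, h, centralizer_zpowers_eq]

theorem cf_eq_of_zpowers {u v : G} (hu : u ∈ P) (h : Subgroup.zpowers v = Subgroup.zpowers u) :
    cf hM hmax v = cf hM hmax u := by
  have hv : v ∈ P := (Subgroup.zpowers_le.2 hu) (h ▸ Subgroup.mem_zpowers v)
  have hle := (belb_spec hM hmax hv).2.2
  rw [h] at hle
  exact coef_eq_of_bl_eq hM (cen_eq_of_zpowers hM hmax h) (belb_spec hM hmax hv).2.1 (belb_spec hM hmax hu).2.1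
    (below_unique (complete (G := G) hM) (isPair_bc hM hmax.1.1) hle (belb_spec hM hmax hu).2.2)

variable (hB : IsPBlock M B) (hPD : IsDefectGroup p M B P)
  (hc : IsInducedBlock M (Subgroup.centralizer (P : Set G)) c B) (hab : ∀ x ∈ P, ∀ y ∈ P, x * y = y * x)
  (hfree : ∀ g ∈ stab P (bc hM P c), ∀ x ∈ P, x ≠ 1 → g * x * g⁻¹ = x → g ∈ Subgroup.centralizer (P : Set G))
include hM hmax hB hPD hc hab hfree

theorem defect_belb {u : G} (hu : u ∈ P) : p ^ blockDefect p (belb hM hmax u) = Nat.card P := by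
  have h := card_defectGroup hM (belb_spec hM hmax hu).2.1 (isDefectGroup_belb hM hmax hab hu)
  rw [← h]
  exact Nat.card_congr (Subgroup.subgroupOfEquivOfLe
    fun z hz => Subgroup.mem_centralizer_singleton_iff.2 (hab z hz u hu)).toEquiv

theorem inf_cen {u : G} (hu : u ∈ P) : P ⊓ cen u = P :=
  inf_eq_left.2 fun z hz => Subgroup.mem_centralizer_singleton_iff.2 (hab z hz u hu)

theorem kernel_pos {u : G} (hu : u ∈ P) : blockKernel (belb hM hmax u) 1 1 ≠ 0 := by
  classical
  haveI : Fintype (IrrCharacter (cen u)) := @Fintype.ofFinite _ finite_irrCharacter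
  obtain ⟨ξ, hξ⟩ := IsPBlock.nonempty hM (belb_spec hM hmax hu).2.1
  rw [blockKernel_eq, Finset.sum_congr rfl (g := fun ρ : IrrCharacter (cen u) =>
    ((charDegree (ρ : cen u → ℂ) ^ 2 : ℕ) : ℂ)) fun ρ _ => by
      rw [apply_one (isCharacter_of_irr ρ.2), Complex.conj_natCast]; push_cast; ring, ← Nat.cast_sum]
  refine Nat.cast_ne_zero.2 (Finset.sum_pos (fun ρ _ => pow_pos (charDegree_pos ρ.2) 2) ⟨ξ, ?_⟩).ne'
  simpa using hξ

/-- The products at a subsection of rank one. -/
theorem NN_eq_DD {u : G} (hu : u ∈ P) (hu1 : u ≠ 1) (χ ψ : IrrCharacter G) :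
    NN hM hmax u (χ : G → ℂ) (ψ : G → ℂ) * blockKernel (belb hM hmax u) 1 1 =
      (Nat.card P : ℂ) * (DD hM hmax u u (χ : G → ℂ) * conj (DD hM hmax u u (ψ : G → ℂ))) := by
  classical
  haveI : Fintype (IrrCharacter G) := @Fintype.ofFinite _ finite_irrCharacter
  haveI : Fintype (IrrCharacter (cen u)) := @Fintype.ofFinite _ finite_irrCharacter
  have hcl : ∀ ψ : IrrCharacter G, IsClassFunction G (ψ : G → ℂ) := fun ψ => isClassFunction (isCharacter_of_irr ψ.2)
  have hup := exists_orderOf_eq_of_mem hmax.1.1.1 hu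
  set b := belb hM hmax u with hb
  have hbP := (belb_spec hM hmax hu).2.1
  have hl := blockRank_belb hM hmax hPD hc hu hu1 hB hab hfree
  have hk := sum_blockKernel_diag (p := p) hM hbP
  rw [hl, Nat.cast_one, mul_one] at hk
  unfold blockRank at hl
  set W := Submodule.span ℂ
    ((fun ξ : IrrCharacter (cen u) => pRegularPart p (ξ : cen u → ℂ)) '' b) with hW
  obtain ⟨v, -, hv⟩ := finrank_eq_one_iff'.1 hl
  have hmem : ∀ a : IrrCharacter G, (fun y => secVal p u b (a : G → ℂ) y) ∈ W := by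
    intro a
    have e : (fun y => secVal p u b (a : G → ℂ) y) = ∑ ξ ∈ Finset.univ.filter (· ∈ b),
        classInner (shiftFun u (a : G → ℂ)) (ξ : cen u → ℂ) •
          pRegularPart p (ξ : cen u → ℂ) := by
      funext y
      simp only [secVal, Finset.sum_apply, Pi.smul_apply, smul_eq_mul, pRegularPart_eq,
        ZStar.blockPart_apply, ← Finset.sum_filter]
      split_ifs <;> simp
    rw [e]
    exact Submodule.sum_mem _ fun ξ hξ => Submodule.smul_mem _ _
      (Submodule.subset_span ⟨ξ, (Finset.mem_filter.1 hξ).2, rfl⟩)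
  choose co hco using fun a => hv ⟨_, hmem a⟩
  have hval : ∀ a y, secVal p u b ((a : IrrCharacter G) : G → ℂ) y = co a * (v : cen u → ℂ) y :=
    fun a y => (congrFun (congrArg Subtype.val (hco a)) y).symm
  set S := ∑ a : IrrCharacter G, co a * conj (co a) with hS
  set Z := ∑ y, (v : cen u → ℂ) y * conj ((v : cen u → ℂ) y) with hZ
  have hsum : ∀ y : cen u, ¬ p ∣ orderOf y → ∀ y' : cen u, ¬ p ∣ orderOf y' →
      blockKernel b y y' = S * ((v : cen u → ℂ) y * conj ((v : cen u → ℂ) y')) := by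
    intro y hy y' hy'
    rw [← sum_secVal_mul hM hup hbP hy hy', hS, Finset.sum_mul]
    exact Finset.sum_congr rfl fun a _ => by rw [hval, hval, map_mul]; ring
  have h1 : ¬ p ∣ orderOf (1 : cen u) := by rw [orderOf_one]; exact hM.1.not_dvd_one
  have hκ := hsum 1 h1 1 h1
  have hSZ : S * Z = (Nat.card (cen u) : ℂ) := by
    rw [← hk, hS, hZ, Finset.sum_mul_sum, Finset.sum_comm]
    refine Finset.sum_congr rfl fun y _ => ?_
    split_ifs with hy
    · refine Finset.sum_eq_zero fun a _ => ?_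
      have : secVal p u b (a : G → ℂ) y = 0 := by rw [secVal, if_pos hy]
      rw [hval] at this
      linear_combination conj (co a) * conj ((v : cen u → ℂ) y) * this
    · rw [hsum y hy y hy, hS, Finset.sum_mul]
  rw [NN, inf_cen hM hmax hB hPD hc hab hfree hu, KS_eq_sum_secVal u b (hcl χ) (hcl ψ), hκ,
    ← secVal_one hM hmax u (hcl χ), ← secVal_one hM hmax u (hcl ψ), ← hb, hval, hval,
    Finset.sum_congr rfl (g := fun y => co χ * conj (co ψ) * ((v : cen u → ℂ) y * conj ((v : cen u → ℂ) y)))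
      fun y _ => by rw [hval, hval, map_mul]; ring, ← Finset.mul_sum, ← hZ, map_mul]
  have hC : (Nat.card (cen u) : ℂ) ≠ 0 := Nat.cast_ne_zero.2 Nat.card_pos.ne'
  field_simp
  linear_combination (co χ * conj (co ψ) * ((v : cen u → ℂ) 1 * conj ((v : cen u → ℂ) 1))) * hSZ

/-- The products are nonzero. -/
theorem NN_self_ne {u : G} (hu : u ∈ P) (hu1 : u ≠ 1) {χ : IrrCharacter G} (hχ : χ ∈ B) :
    NN hM hmax u (χ : G → ℂ) (χ : G → ℂ) ≠ 0 := by
  classical
  haveI : Fintype (IrrCharacter (cen u)) := @Fintype.ofFinite _ finite_irrCharacter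
  set b := belb hM hmax u
  have hind := isInduced_belb hM hmax hB hu
  have hup := exists_orderOf_eq_of_mem hmax.1.1.1 hu
  obtain ⟨d, hd⟩ := IsPGroup.iff_card.1 hmax.1.1.1
  obtain ⟨ξ₀, h₀, hmin₀, hs₀⟩ := exists_min_degExp hM hind.1
  obtain ⟨χ₁, hχ₁, hmin₁, he₁⟩ := exists_min_degExp hM hB
  have hh1 : blockHeight p B (χ₁ : G → ℂ) = 0 := by rw [blockHeight_eq he₁, Nat.sub_self]
  have hoN : orderOf u ∣ p ^ d := by
    rw [← hd]
    have h := orderOf_dvd_natCard (⟨u, hu⟩ : P)
    rwa [Subgroup.orderOf_mk] at h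
  have hdef := defect_belb hM hmax hB hPD hc hab hfree hu
  have hdB := card_defectGroup hM hB hPD
  have hne : NN hM hmax u (χ : G → ℂ) (χ₁ : G → ℂ) ≠ 0 := by
    intro h0
    refine major_not_mem hM hup hind hoN h₀ hmin₀
      ((Nat.pow_right_injective hM.1.two_le (hdB.symm.trans hdef.symm)).trans (blockDefect_eq hs₀)) hχ hχ₁ hh1 ?_
    rw [aeval_contribPoly hM (pow_ne_zero _ hM.1.ne_zero) hoN hmin₀, ← blockDefect_eq hs₀,
      ← KS_eq_sum_secVal u b (isClassFunction (isCharacter_of_irr χ.2)) (isClassFunction (isCharacter_of_irr χ₁.2)),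
      ← Nat.cast_pow, hdef]
    rw [NN, inf_cen hM hmax hB hPD hc hab hfree hu] at h0
    rw [h0, zero_div]
    exact memLocalIdeal_zero hM
  have hκ := kernel_pos hM hmax hB hPD hc hab hfree hu
  have h := NN_eq_DD hM hmax hB hPD hc hab hfree hu hu1 χ χ₁
  intro h0
  have h' := NN_eq_DD hM hmax hB hPD hc hab hfree hu hu1 χ χ
  rw [h0, zero_mul, eq_comm, mul_eq_zero, Complex.mul_conj, Complex.ofReal_eq_zero, Complex.normSq_eq_zero] at h'
  rw [h'.resolve_left (Nat.cast_ne_zero.2 Nat.card_pos.ne'), zero_mul, mul_zero, mul_eq_zero] at h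
  exact hne (h.resolve_right hκ)

/-- The values at the subsections of the generators of a cyclic subgroup are conjugate algebraic integers. -/
theorem exists_deltaPoly {u : G} (hu : u ∈ P) (hu1 : u ≠ 1) : ∃ A : IrrCharacter G → ℤ[X],
    (∀ j : ℕ, j.Coprime (orderOf u) → ∀ χ ψ : IrrCharacter G, NN hM hmax (u ^ j) (χ : G → ℂ) (ψ : G → ℂ) =
      aeval (zetaRoot (orderOf u) ^ j) (A χ) * conj (aeval (zetaRoot (orderOf u) ^ j) (A ψ))) ∧
    ∀ (χ : IrrCharacter G) (k : ℕ), k ≡ 1 [MOD Nat.card G / p ^ (Nat.card G).factorization p] →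
      (∀ g : G, (χ : G → ℂ) (g ^ k) = (χ : G → ℂ) g) →
        ∀ j : ℕ, aeval (zetaRoot (orderOf u) ^ (j * k)) (A χ) = aeval (zetaRoot (orderOf u) ^ j) (A χ) := by
  classical
  haveI : Fintype (IrrCharacter (cen u)) := @Fintype.ofFinite _ finite_irrCharacter
  set b := belb hM hmax u with hb
  have hbP := (belb_spec hM hmax hu).2.1
  have hl := blockRank_belb hM hmax hPD hc hu hu1 hB hab hfree
  obtain ⟨φ, d, -, -, hmult, hsq⟩ := rank_one_structure hM hbP hl
  rw [defect_belb hM hmax hB hPD hc hab hfree hu] at hsq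
  have h1 : ¬ p ∣ orderOf (1 : cen u) := by rw [orderOf_one]; exact hM.1.not_dvd_one
  set g := φ 1 with hg
  have hdeg : ∀ ξ ∈ b, (ξ : cen u → ℂ) 1 = (d ξ : ℂ) * g := fun ξ hξ => hmult ξ hξ 1 h1
  have hgc : conj g = g := by
    obtain ⟨ξ, hξ⟩ := IsPBlock.nonempty hM hbP
    have h := hdeg ξ hξ
    rw [apply_one (isCharacter_of_irr ξ.2)] at h
    have hd0 : (d ξ : ℂ) ≠ 0 := fun h0 => (Nat.cast_ne_zero.2 (charDegree_pos ξ.2).ne') (by rw [h, h0, zero_mul])
    rw [show g = (charDegree (ξ : cen u → ℂ) : ℂ) / d ξ by rw [h]; field_simp, map_div₀, Complex.conj_natCast,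
      Complex.conj_natCast]
  have hκ : blockKernel b 1 1 = (Nat.card P : ℂ) * g ^ 2 := by
    rw [← hsq, blockKernel_eq, Nat.cast_sum, Finset.sum_mul, Finset.sum_filter]
    refine Finset.sum_congr rfl fun ξ _ => ?_
    split_ifs with hξ
    · rw [hdeg ξ hξ, map_mul, Complex.conj_natCast, hgc]; push_cast; ring
    · simp
  have hg0 : g ≠ 0 := fun h0 => kernel_pos hM hmax hB hPD hc hab hfree hu (by rw [hκ, h0]; ring)
  have hN : orderOf u ≠ 0 := (orderOf_pos u).ne'
  haveI : NeZero (orderOf u) := ⟨hN⟩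
  set u' : cen u := ⟨u, Subgroup.mem_centralizer_singleton_iff.2 rfl⟩ with hu'
  have hz : u' ∈ Subgroup.center (cen u) :=
    Subgroup.mem_center_iff.2 fun y => Subtype.ext (Subgroup.mem_centralizer_singleton_iff.1 y.2)
  have hpow : ∀ (ξ : IrrCharacter (cen u)) (j : ℕ) (y : cen u),
      (ξ : cen u → ℂ) (u' ^ j * y) = ((ξ : cen u → ℂ) u' / (ξ : cen u → ℂ) 1) ^ j * (ξ : cen u → ℂ) y := by
    intro ξ j
    induction j with
    | zero => simp
    | succ j ih =>
      intro y
      rw [pow_succ, mul_assoc, ih, pow_succ, mul_assoc]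
      congr 1
      rw [div_mul_eq_mul_div, eq_div_iff (apply_one_ne_zero ξ.2), mul_comm ((ξ : cen u → ℂ) (u' * y))]
      exact center_mul ξ.2 hz y
  have hroot : ∀ ξ : IrrCharacter (cen u), ∃ i < orderOf u,
      zetaRoot (orderOf u) ^ i = (ξ : cen u → ℂ) u' / (ξ : cen u → ℂ) 1 := fun ξ => by
    refine (zetaRoot_prim hN).eq_pow_of_pow_eq_one ?_
    have h := hpow ξ (orderOf u) 1
    rw [show u' ^ orderOf u = 1 from Subtype.ext (by simp [hu', pow_orderOf_eq_one]), one_mul] at h
    exact (mul_eq_right₀ (apply_one_ne_zero ξ.2)).1 h.symm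
  choose ix _ hix using hroot
  choose m hm using fun (χ : IrrCharacter G) (ξ : IrrCharacter (cen u)) =>
    classInner_characters_nat (isCharacter_restrict (isCharacter_of_irr χ.2) (cen u)) (isCharacter_of_irr ξ.2)
  have hD : ∀ (χ : IrrCharacter G) (j : ℕ), DD hM hmax u (u ^ j) (χ : G → ℂ) =
      g * aeval (zetaRoot (orderOf u) ^ j)
        (∑ ξ ∈ Finset.univ.filter (· ∈ b), C ((m χ ξ * d ξ : ℕ) : ℤ) * X ^ ix ξ) := by
    intro χ j
    have hsub : DD hM hmax u (u ^ j) (χ : G → ℂ) = ∑ y : cen u, blockCoeff b y * (χ : G → ℂ) ((u' ^ j * y : cen u) : G) := by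
      rw [DD]
      refine (Finset.sum_bij_ne_zero (fun (y : cen u) _ _ => (y : G)) (fun _ _ _ => Finset.mem_univ _)
        (fun _ _ _ _ _ _ h => Subtype.ext h) (fun h _ hne => ?_) (fun y _ _ => ?_)).symm
      · by_cases hh : h ∈ cen u
        · refine ⟨⟨h, hh⟩, Finset.mem_univ _, ?_, rfl⟩
          simpa [coef, subgroupBlockCoeff, dif_pos hh, hu'] using hne
        · simp [coef, subgroupBlockCoeff, dif_neg hh] at hne
      · simp [coef, subgroupBlockCoeff, hu', hb]
    have hexp : ∀ y : cen u, (χ : G → ℂ) ((u' ^ j * y : cen u) : G) =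
        ∑ ξ : IrrCharacter (cen u), (m χ ξ : ℂ) * ((zetaRoot (orderOf u) ^ ix ξ) ^ j * (ξ : cen u → ℂ) y) := fun y => by
      have h := congrFun (classFun_expand (isClassFunction (isCharacter_restrict (isCharacter_of_irr χ.2) (cen u))))
        (u' ^ j * y)
      simp only [Finset.sum_apply, Pi.smul_apply, smul_eq_mul] at h
      rw [h]
      exact Finset.sum_congr rfl fun ξ _ => by rw [hm, hpow, hix]
    have hom : ∀ ξ : IrrCharacter (cen u),
        ∑ y : cen u, blockCoeff b y * (ξ : cen u → ℂ) y = if ξ ∈ b then (ξ : cen u → ℂ) 1 else 0 := fun ξ => by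
      have h := omega_blockElt b ξ
      rw [omega, div_eq_iff (apply_one_ne_zero ξ.2)] at h
      simp only [coeff_blockElt, ite_mul, one_mul, zero_mul] at h
      exact h
    rw [hsub, Finset.sum_congr rfl fun y _ => by rw [hexp, Finset.mul_sum], Finset.sum_comm, map_sum, Finset.mul_sum,
      Finset.sum_filter]
    refine Finset.sum_congr rfl fun ξ _ => ?_
    rw [Finset.sum_congr rfl (g := fun y => (m χ ξ : ℂ) * (zetaRoot (orderOf u) ^ ix ξ) ^ j *
      (blockCoeff b y * (ξ : cen u → ℂ) y)) fun y _ => by ring, ← Finset.mul_sum, hom]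
    split_ifs with hξ
    · rw [hdeg ξ hξ, map_mul, aeval_C, map_pow, aeval_X, ← pow_mul, ← pow_mul, mul_comm (ix ξ) j]
      simp only [eq_intCast, Int.cast_natCast]
      push_cast
      ring
    · rw [mul_zero]
  refine ⟨fun χ => ∑ ξ ∈ Finset.univ.filter (· ∈ b), C ((m χ ξ * d ξ : ℕ) : ℤ) * X ^ ix ξ, fun j hj χ ψ => ?_,
    fun χ k hk hfix j => ?_⟩
  · have hzp : Subgroup.zpowers (u ^ j) = Subgroup.zpowers u :=
      Subgroup.eq_of_le_of_card_ge (Subgroup.zpowers_le.2 (Subgroup.pow_mem _ (Subgroup.mem_zpowers u) j))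
        (by rw [Nat.card_zpowers, Nat.card_zpowers, Nat.Coprime.orderOf_pow hj.symm])
    have hv1 : u ^ j ≠ 1 := fun h => hu1 (Subgroup.zpowers_eq_bot.1 (by rw [← hzp, h, Subgroup.zpowers_one_eq_bot]))
    have h := NN_eq_DD hM hmax hB hPD hc hab hfree (P.pow_mem hu j) hv1 χ ψ
    rw [kernel_one, cf_eq_of_zpowers hM hmax hu hzp, cen_eq_of_zpowers hM hmax hzp, ← kernel_one, ← hb, hκ,
      show DD hM hmax (u ^ j) (u ^ j) (χ : G → ℂ) = DD hM hmax u (u ^ j) (χ : G → ℂ) by
        simp only [DD, cf_eq_of_zpowers hM hmax hu hzp],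
      show DD hM hmax (u ^ j) (u ^ j) (ψ : G → ℂ) = DD hM hmax u (u ^ j) (ψ : G → ℂ) by
        simp only [DD, cf_eq_of_zpowers hM hmax hu hzp], hD, hD, map_mul, hgc] at h
    have hn : (Nat.card P : ℂ) * g ^ 2 ≠ 0 :=
      mul_ne_zero (Nat.cast_ne_zero.2 Nat.card_pos.ne') (pow_ne_zero _ hg0)
    refine mul_right_cancel₀ hn ?_
    rw [h]
    ring
  · refine mul_left_cancel₀ hg0 ?_
    rw [← hD, ← hD, DD, DD]
    refine Finset.sum_congr rfl fun h _ => ?_
    by_cases hh : h ∈ cen u
    · by_cases hp' : p ∣ orderOf (⟨h, hh⟩ : cen u)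
      · simp [subgroupBlockCoeff, dif_pos hh, blockCoeff_eq_zero hM hbP hp', ← hb]
        exact Or.inr (blockCoeff_eq_zero hM hbP hp')
      · rw [← hfix (u ^ j * h)]
        congr 2
        have hcom : Commute (u ^ j) h := (show Commute u h from (Subgroup.mem_centralizer_singleton_iff.1 hh).symm).pow_left j
        rw [hcom.mul_pow, ← pow_mul, BrauerChar.pow_eq_self_regular hM.1 hk (by rwa [Subgroup.orderOf_mk] at hp')]
    · simp [coef, subgroupBlockCoeff, dif_neg hh]

/-- The trivial product. -/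
theorem star_one_eq {χ : IrrCharacter G} (hχ : χ ∈ B) : star hM P c (fun _ => (1 : ℂ)) χ = (χ : G → ℂ) := by
  classical
  haveI : ∀ x : G, Fintype (IrrCharacter (cen x)) := fun x => @Fintype.ofFinite _ finite_irrCharacter
  have hst : Stable hM P c (fun _ => (1 : ℂ)) := fun _ _ _ _ _ => rfl
  funext g
  obtain ⟨x, y, hxy, hcom, hx, hy, -, -⟩ := ZStar.exists_pPart (p := p) hM.1 g
  have hyC : y ∈ cen x := Subgroup.mem_centralizer_singleton_iff.2 hcom.eq.symm
  have hyo : ¬ p ∣ orderOf (⟨y, hyC⟩ : cen x) := by rwa [Subgroup.orderOf_mk]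
  have h1 := star_mul_eq_sum hM P c (fun _ => (1 : ℂ)) χ hx ⟨y, hyC⟩ hyo
  have h2 := regular_eq_sum_secVal (p := p) (u := x) hM (isClassFunction (isCharacter_of_irr χ.2)) (⟨y, hyC⟩ : cen x)
  rw [if_neg hyo] at h2
  rw [← hxy]
  refine h1.trans (Eq.trans (Finset.sum_congr rfl fun b hb => ?_) h2.symm)
  by_cases hi : IsInducedBlock M (cen x) b B
  · obtain ⟨g', -, hg'⟩ := exists_ev_eq hM hmax hst ((induced_iff_ofBlk hM hx (mem_blockFinset.1 hb) hB).1 hi)
    rw [hg', one_mul]
  · rw [secVal_eq_zero hM hx (mem_blockFinset.1 hb) hB hχ hi, mul_zero]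

/-- The identity as the regular products and the subsections. -/
theorem delta_NN {χ : IrrCharacter G} (hχ : χ ∈ B) (ψ : IrrCharacter G) [Decidable (χ = ψ)]
    [DecidablePred fun u : G => u ∈ P ∧ u ≠ 1] :
    (if χ = ψ then (1 : ℂ) else 0) = classInner (pRegularPart p (χ : G → ℂ)) (ψ : G → ℂ) +
      ((Nat.card P : ℂ) * ((Subgroup.centralizer (P : Set G)).relIndex (stab P (bc hM P c)) : ℂ))⁻¹ *
        ∑ u ∈ Finset.univ.filter (fun u : G => u ∈ P ∧ u ≠ 1), NN hM hmax u (χ : G → ℂ) (ψ : G → ℂ) := by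
  classical
  have hst : Stable hM P c (fun _ => (1 : ℂ)) := fun _ _ _ _ _ => rfl
  have h := classInner_star_eq hM hmax hB hab hfree hst hχ ψ
  rw [star_one_eq hM hmax hB hPD hc hab hfree hχ, classInner_irr] at h
  simp only [one_mul] at h
  refine Eq.trans ?_ h
  split_ifs <;> rfl

theorem NN_eq_zero_of_notMem {u : G} (hu : u ∈ P) {ψ : IrrCharacter G} (hψ : ψ ∉ B) (φ : IrrCharacter G) :
    NN hM hmax u (ψ : G → ℂ) (φ : G → ℂ) = 0 := by
  rw [NN, KS_eq_sum_secVal u _ (isClassFunction (isCharacter_of_irr ψ.2)) (isClassFunction (isCharacter_of_irr φ.2)),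
    Finset.sum_eq_zero, mul_zero]
  intro y _
  rw [secVal_eq_zero_of_notMem' hM (exists_orderOf_eq_of_mem hmax.1.1.1 hu) (isInduced_belb hM hmax hB hu) hψ,
    zero_mul]

theorem sum_NN_diag [Fintype (IrrCharacter G)] [DecidablePred (· ∈ B)] {u : G} (hu : u ∈ P) (hu1 : u ≠ 1) :
    ∑ χ ∈ Finset.univ.filter (· ∈ B), NN hM hmax u (χ : G → ℂ) (χ : G → ℂ) = (Nat.card P : ℂ) := by
  classical
  haveI : Fintype (IrrCharacter (cen u)) := @Fintype.ofFinite _ finite_irrCharacter
  rw [Finset.sum_subset (Finset.subset_univ _) fun χ _ hχ =>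
    NN_eq_zero_of_notMem hM hmax hB hPD hc hab hfree hu (by simpa using hχ) χ]
  have hup := exists_orderOf_eq_of_mem hmax.1.1.1 hu
  have hbP := (belb_spec hM hmax hu).2.1
  simp only [NN, inf_cen hM hmax hB hPD hc hab hfree hu, KS_eq_sum_secVal u _ (isClassFunction (isCharacter_of_irr (Subtype.property _)))
    (isClassFunction (isCharacter_of_irr (Subtype.property _)))]
  rw [← Finset.mul_sum, Finset.sum_comm]
  have hk := sum_blockKernel_diag (p := p) hM hbP
  rw [blockRank_belb hM hmax hPD hc hu hu1 hB hab hfree, Nat.cast_one, mul_one] at hk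
  rw [Finset.sum_congr rfl fun y _ => show _ = (if p ∣ orderOf y then 0 else blockKernel (belb hM hmax u) y y) by
    split_ifs with hy
    · exact Finset.sum_eq_zero fun χ _ => by rw [secVal, if_pos hy, zero_mul]
    · exact sum_secVal_mul hM hup hbP hy hy, hk]
  field_simp [Nat.cast_ne_zero.2 (Nat.card_pos (α := cen u)).ne']

/-- The twisted differences have local multiplicities. -/
theorem memLocalRing_twist (θ : IrrCharacter P) (hθ : (θ : P → ℂ) 1 = 1) {χ : IrrCharacter G} (hχ : χ ∈ B)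
    (ψ : IrrCharacter G) [DecidablePred fun u : G => u ∈ P ∧ u ≠ 1] :
    MemLocalRing M ((Nat.card P : ℂ)⁻¹ * ∑ u ∈ Finset.univ.filter (fun u : G => u ∈ P ∧ u ≠ 1),
      (extConj θ u - 1) * NN hM hmax u (χ : G → ℂ) (ψ : G → ℂ)) := by
  classical
  set T := stab P (bc hM P c) with hTdef
  set e := ((Subgroup.centralizer (P : Set G)).relIndex T : ℂ) with he
  have he0 : e ≠ 0 := Nat.cast_ne_zero.2
    (Subgroup.index_ne_zero_of_finite (H := (Subgroup.centralizer (P : Set G)).subgroupOf T))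
  set P' := Finset.univ.filter (fun u : G => u ∈ P ∧ u ≠ 1) with hP'
  have hst := stable_etaSum hM hmax hab θ
  have h := memLocalRing_inner_of_stable hM (memLocalRing_etaSum hM θ) hst (ro_etaSum hM θ) hmax hB hχ ψ
  rw [classInner_star_eq hM hmax hB hab hfree hst hχ ψ] at h
  have h1 : etaSum c hM θ 1 = e := by
    have h : ∀ z : G, z = 1 → extConj θ z = 1 := fun z hz => by
      subst hz
      rw [extConj, dif_pos P.one_mem, show (⟨1, P.one_mem⟩ : P) = 1 from rfl, hθ, map_one]
    rw [etaSum, Finset.sum_congr rfl fun q _ => h _ (by group), Finset.sum_const, Finset.card_univ, nsmul_eq_mul,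
      mul_one, he, ← Nat.card_eq_fintype_card, ← Subgroup.index_eq_card]
    rfl
  have hq : ∀ q : ↥T ⧸ (Subgroup.centralizer (P : Set G)).subgroupOf T,
      ∑ u ∈ P', extConj θ ((q.out : G) * u * (q.out : G)⁻¹) * NN hM hmax u (χ : G → ℂ) (ψ : G → ℂ) =
        ∑ u ∈ P', extConj θ u * NN hM hmax u (χ : G → ℂ) (ψ : G → ℂ) := by
    intro q
    refine Finset.sum_equiv (MulAut.conj (q.out : G)).toEquiv (fun u => ?_) fun u hu => ?_
    · simp only [hP', Finset.mem_filter, Finset.mem_univ, true_and, MulEquiv.toEquiv_eq_coe, EquivLike.coe_coe,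
        MulAut.conj_apply, ne_eq, conj_eq_one_iff]
      exact and_congr_left' (Subgroup.mem_normalizer_iff.1 q.out.2.1 u)
    · simp only [MulEquiv.toEquiv_eq_coe, EquivLike.coe_coe, MulAut.conj_apply]
      rw [NN_stab hM hmax hab q.out.2 (Finset.mem_filter.1 hu).2.1]
  have hcardq : (Fintype.card (↥T ⧸ (Subgroup.centralizer (P : Set G)).subgroupOf T) : ℂ) = e := by
    rw [← Nat.card_eq_fintype_card, ← Subgroup.index_eq_card]; rfl
  have hd := delta_NN hM hmax hB hPD hc hab hfree hχ ψ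
  rw [← hTdef, ← he, ← hP'] at h hd
  have hR : MemLocalRing M (e * (if χ = ψ then (1 : ℂ) else 0)) :=
    memLocalRing_mul hM (memLocalRing_natCast hM _) (by
      split_ifs
      exacts [memLocalRing_one hM, memLocalRing_zero hM])
  have h2 := memLocalRing_add hM h (memLocalRing_neg hR)
  convert h2 using 1
  rw [hd, h1]
  simp only [etaSum, Finset.sum_mul]
  rw [Finset.sum_comm, Finset.sum_congr rfl fun q _ => hq q, Finset.sum_const, Finset.card_univ, nsmul_eq_mul, hcardq]
  simp only [sub_mul, one_mul, Finset.sum_sub_distrib]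
  have : (Nat.card P : ℂ) ≠ 0 := Nat.cast_ne_zero.2 Nat.card_pos.ne'
  field_simp
  ring

end CfsgLib.CyclicExc
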