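import Cfsg.Agent.Blocks.KleinFour.Partner

/-!
# A correspondent in an overgroup of the normalizer of the defect group has the same inertial index
-/

set_option autoImplicit false
set_option linter.unusedSectionVars false
set_option linter.style.haveILetI false

namespace CfsgLib.CyclicExc

open Cfsg CfsgLib CfsgLib.Blocks CfsgLib.CharBasics CfsgLib.PairAlg

attribute [local instance] residueField residue_charP

universe u

variable {p : ℕ} [Fact p.Prime] {M : Ideal AlgInt} {G : Type u} [Group G] [Fintype G]

noncomputable local instance instFintypeSubgroupCyclicExcPartner (K : Subgroup G) : Fintype K := Fintype.ofFinite K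

/-- A correspondent in an overgroup of the normalizer has roots with the same inertial index. -/
theorem partner_index (hM : IsPModular p M) {B : Set (IrrCharacter G)} (hB : IsPBlock M B) {P : Subgroup G}
    (hPD : IsDefectGroup p M B P) {N : Subgroup G} (hN : Subgroup.normalizer (P : Set G) ≤ N)
    {c : Set (IrrCharacter N)} (hcD : IsDefectGroup p M c (P.subgroupOf N)) (hc : IsInducedBlock M N c B) :
    ∃ (e : Set (IrrCharacter (Subgroup.centralizer (P : Set G))))
      (e' : Set (IrrCharacter (Subgroup.centralizer ((P.subgroupOf N : Subgroup N) : Set N)))),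
      IsInducedBlock M (Subgroup.centralizer (P : Set G)) e B ∧
      IsInducedBlock M (Subgroup.centralizer ((P.subgroupOf N : Subgroup N) : Set N)) e' c ∧
      (Subgroup.centralizer (P : Set G)).relIndex (stab P (bc hM P e)) =
        (Subgroup.centralizer ((P.subgroupOf N : Subgroup N) : Set N)).relIndex (stab (P.subgroupOf N) (bc hM (P.subgroupOf N) e')) := by
  classical
  have hPN : P ≤ N := Subgroup.le_normalizer.trans hN
  have hCN : Subgroup.centralizer (P : Set G) ≤ N := (Subgroup.centralizer_le_normalizer _).trans hN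
  set P' := P.subgroupOf N with hP'
  have hι : Function.Injective N.subtype := N.subtype_injective
  have hmap : P'.map N.subtype = P := Subgroup.map_subgroupOf_eq_of_le hPN
  have hPp : IsPGroup p P := isPGroup_of_isDefectGroup hPD
  have hP'p : IsPGroup p P' := hPp.of_equiv (Subgroup.subgroupOfEquivOfLe hPN).symm
  obtain ⟨hbr, -⟩ := (isDefectGroup_sub_iff hM hc.1 hPp hPN).1 hcD
  have hblkN : IsBlk N (bl hM N.subtype c) := by
    have := isBlk_bl hM N.subtype hι hc.1
    rwa [Subgroup.range_subtype] at this
  obtain ⟨a, ha⟩ := exists_pair (complete (G := G) hM) hblkN hPp hPN hbr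
  have hblkC : IsBlk (Subgroup.centralizer (P : Set G)) a := CH_of_le hCN ▸ ha.2.1.blk
  have hrange : (N.subtype.comp (Subgroup.centralizer (P' : Set N)).subtype).range =
      Subgroup.centralizer (P : Set G) := by
    rw [range_centralizer _ hι, hmap, Subgroup.range_subtype, CH_of_le hCN]
  obtain ⟨e', he', he'a⟩ := exists_bl hM _ (injective_comp _ hι (Subgroup.centralizer (P' : Set N))) hrange hblkC
  have hpair' : IsBrauerPairOf p M c P' e' := by
    refine (isBrauerPairOf_iff_ofBlk hM N.subtype hι hc.1 ⟨hP'p, he'⟩).2 ?_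
    rw [Subgroup.range_subtype, hmap, he'a]
    exact ha
  have hind' := KleinFour.induced_of_pairOf hM hpair'
  -- the pair belongs to the block of the group
  set z := ZStar.res (Subgroup.centralizer (P' : Set N)) (ZStar.res N (blockElt B)) with hz
  have hzC := ZStar.isClassElt_res (isClassElt_blockElt B) N
  have hzI := ZStar.isIntegralElt_res (isIntegralElt_blockElt hM hB) N
  have hup : up hM (N.subtype.comp (Subgroup.centralizer (P' : Set N)).subtype) z = Br P (bG hM B) := by
    ext g
    by_cases hg : g ∈ Subgroup.centralizer (P : Set G)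
    · have hg' : g ∈ (N.subtype.comp (Subgroup.centralizer (P' : Set N)).subtype).range := hrange.symm ▸ hg
      obtain ⟨v, hv⟩ := hg'
      subst hv
      rw [coeff_up hM _ (injective_comp _ hι _), Br, coeff_cut_of_mem _ hg, hz, ZStar.coeff_res, ZStar.coeff_res,
        bG, bl, show (N.subtype.comp (Subgroup.centralizer (P' : Set N)).subtype) v = (MonoidHom.id G) ((v : N) : G) from rfl,
        coeff_up hM _ id_injective]
    · rw [coeff_up_of_notMem hM _ _ (hrange.symm ▸ hg), Br, coeff_cut_of_notMem _ hg]
  have hfix : Fix P (bG hM B) := by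
    have := (cenIn_up hM (MonoidHom.id G) id_injective (isClassElt_blockElt B)).2
    rw [range_id] at this
    exact this.mono le_top
  have hid : up hM (N.subtype.comp (Subgroup.centralizer (P' : Set N)).subtype) z * up hM (N.subtype.comp (Subgroup.centralizer (P' : Set N)).subtype) z =
      up hM (N.subtype.comp (Subgroup.centralizer (P' : Set N)).subtype) z := by
    rw [hup, ← br_mul hPp hfix hfix]
    congr 1
    exact bl_idem hM _ hB
  obtain ⟨ξ, hξ⟩ := IsPBlock.nonempty hM he'
  obtain ⟨η, hη⟩ := IsPBlock.nonempty hM hc.1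
  obtain ⟨χ, hχ⟩ := IsPBlock.nonempty hM hB
  have hω : MemLocalIdeal M (omega (ξ : (Subgroup.centralizer (P' : Set N)) → ℂ) z - 1) := by
    have h1 := ZStar.omega_res_induced hM hind' hξ hη hzC hzI
    have h2 := ZStar.omega_res_induced hM hc hη hχ (isClassElt_blockElt B) (isIntegralElt_blockElt hM hB)
    rw [omega_blockElt, if_pos hχ] at h2
    simpa [hz] using memLocalIdeal_add hM h1 h2
  have hmul : a * Br P (bG hM B) = a := by
    rw [← hup, ← he'a]
    have hzI' := ZStar.isIntegralElt_res hzI (Subgroup.centralizer (P' : Set N))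
    exact (bl_mul_eq_iff hM _ (injective_comp _ hι _) he' (ZStar.isClassElt_res hzC (Subgroup.centralizer (P' : Set N))) hzI' hid hξ).2
      ((rd_eq_one_iff hM (memLocalRing_omega hM ξ (ZStar.isClassElt_res hzC (Subgroup.centralizer (P' : Set N))) hzI')).2 hω)
  have hofG : OfBlk p ⊤ (bG hM B) P a := by
    refine ⟨?_, ⟨hPp, le_top, by rwa [CH_top]⟩, hmul⟩
    have := isBlk_bl hM (MonoidHom.id G) id_injective hB
    rwa [range_id] at this
  obtain ⟨e, hPe, hea⟩ := exists_bc hM hofG.2.1
  have hpairG : IsBrauerPairOf p M B P e := (isBrauerPairOf_iff_bc hM hB hPe).2 (hea.symm ▸ hofG)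
  have hindG := KleinFour.induced_of_pairOf hM hpairG
  refine ⟨e, e', hindG, hind', ?_⟩
  have hstab : (stab P' (bc hM P' e')).map N.subtype = stab P (bc hM P e) := by
    ext g
    constructor
    · rintro ⟨t, ht, rfl⟩
      have hst := (stabilizesBlock_bc_iff hM he' ht.1).2 ht.2
      have h2 := ((stabilizesBlock_iff_cj hM N.subtype hι he').1 hst).2
      rw [he'a] at h2
      refine ⟨?_, ?_⟩
      · show (t : G) ∈ Subgroup.normalizer (P : Set G)
        refine Subgroup.mem_normalizer_iff.2 fun r => ⟨fun hr => ?_, fun hr => ?_⟩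
        · have h := (Subgroup.mem_normalizer_iff.1 ht.1 ⟨r, hPN hr⟩).1 (Subgroup.mem_subgroupOf.2 hr)
          exact Subgroup.mem_subgroupOf.1 h
        · have hrN : r ∈ N := by
            have h := N.mul_mem (N.mul_mem (N.inv_mem t.2) (hPN hr)) t.2
            simpa [mul_assoc] using h
          exact Subgroup.mem_subgroupOf.1
            ((Subgroup.mem_normalizer_iff.1 ht.1 ⟨r, hrN⟩).2 (Subgroup.mem_subgroupOf.2 hr))
      · rw [hea]; exact h2
    · intro hg
      have hgN : g ∈ N := hN hg.1
      have hn : (⟨g, hgN⟩ : N) ∈ Subgroup.normalizer (P' : Set N) := by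
        refine Subgroup.mem_normalizer_iff.2 fun r => ?_
        rw [hP', Subgroup.mem_subgroupOf, Subgroup.mem_subgroupOf]
        exact Subgroup.mem_normalizer_iff.1 hg.1 (r : G)
      refine ⟨⟨g, hgN⟩, ⟨hn, (stabilizesBlock_bc_iff hM he' hn).1
        ((stabilizesBlock_iff_cj hM N.subtype hι he').2 ⟨le_normalizer_centralizer P' hn, ?_⟩)⟩, rfl⟩
      rw [he'a, ← hea]
      exact hg.2
  have hC : (Subgroup.centralizer (P' : Set N)).map N.subtype = Subgroup.centralizer (P : Set G) := by
    rw [← hrange, MonoidHom.range_comp, Subgroup.range_subtype]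
  rw [← hstab, ← hC]
  exact Subgroup.relIndex_map_map_of_injective _ _ hι

end CfsgLib.CyclicExc
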