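import Cfsg.Agent.Blocks.CyclicExc.Cols

/-!
# The integer vectors of a block with cyclic defect group
-/

set_option autoImplicit false
set_option linter.unusedSectionVars false

namespace CfsgLib.CyclicExc

open Cfsg CfsgLib CfsgLib.CharBasics Finset
open scoped ComplexConjugate

section Orbits

variable {n : ℕ} [NeZero n] (R : Finset (ZMod n))

/-- The orbits of the nonzero indices under the multipliers. -/
abbrev Orb : Type := ↥((univ.erase (0 : ZMod n)).image fun x => R.image (· * x))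

variable {R}

/-- The sum of the conjugate characters over an orbit. -/
noncomputable def lam (O : Orb R) (s : ZMod n) : ℂ := ∑ t ∈ O.1, ee n (-(t * s))

end Orbits

namespace PreCols

variable {p : ℕ} [hp : Fact p.Prime] {a e : ℕ} {ι : Type*} [Fintype ι] [DecidableEq ι] (D : PreCols p a e ι)
include D

theorem R_cancel {r : ZMod (p ^ a)} (hr : r ∈ D.R) {s t : ZMod (p ^ a)} (h : r * s = r * t) : s = t := by
  by_contra hne
  exact D.R_unit hr (sub_ne_zero.2 hne) (by rw [mul_sub, h, sub_self])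

theorem orb_eq {x y : ZMod (p ^ a)} (hy0 : y ≠ 0) (hx0 : x ≠ 0) (hy : y ∈ D.orb x) : D.orb y = D.orb x := by
  refine eq_of_subset_of_card_le (fun w hw => ?_) (by rw [D.card_orb hx0, D.card_orb hy0])
  obtain ⟨r, hr, rfl⟩ := mem_image.1 hw
  obtain ⟨r', hr', rfl⟩ := mem_image.1 hy
  exact mem_image.2 ⟨r * r', D.R_mul r hr r' hr', mul_assoc r r' x⟩

theorem sum_ee (b : ZMod (p ^ a)) [Decidable (b = 0)] :
    ∑ s, ee (p ^ a) (b * s) = if b = 0 then ((p ^ a : ℕ) : ℂ) else 0 := by
  have h := AddChar.sum_mulShift b (ee_primitive (p ^ a))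
  simp only [mul_comm _ b, ZMod.card] at h
  rw [h]
  split_ifs <;> simp

theorem sum_ee' (b : ZMod (p ^ a)) [Decidable (b = 0)] :
    ∑ t, ee (p ^ a) (t * b) = if b = 0 then ((p ^ a : ℕ) : ℂ) else 0 := by
  rw [← D.sum_ee b]
  exact sum_congr rfl fun t _ => by rw [mul_comm]

theorem eq_zero_of_fourier (c : ZMod (p ^ a) → ℂ) (h : ∀ t, ∑ s, (ee (p ^ a) (t * s) - 1) * c s = 0)
    {s₀ : ZMod (p ^ a)} (hs₀ : s₀ ≠ 0) : c s₀ = 0 := by
  classical
  have h1 : ∑ t, ee (p ^ a) (-(t * s₀)) * ∑ s, (ee (p ^ a) (t * s) - 1) * c s = 0 :=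
    sum_eq_zero fun t _ => by rw [h t, mul_zero]
  simp only [mul_sum] at h1
  rw [sum_comm, sum_congr rfl (g := fun s => (if s = s₀ then ((p ^ a : ℕ) : ℂ) else 0) * c s) fun s _ => ?_] at h1
  · simpa [hp.out.ne_zero] using h1
  · have e1 : ∀ t, ee (p ^ a) (-(t * s₀)) * ((ee (p ^ a) (t * s) - 1) * c s) =
        (ee (p ^ a) (t * (s - s₀)) - ee (p ^ a) (t * (-s₀))) * c s := fun t => by
      rw [mul_sub t, mul_neg, sub_eq_add_neg (t * s), AddChar.map_add_eq_mul]
      ring
    rw [sum_congr rfl fun t _ => e1 t, ← sum_mul, sum_sub_distrib, D.sum_ee', D.sum_ee',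
      if_neg (neg_ne_zero.2 hs₀), sub_zero]
    congr 1
    exact if_congr sub_eq_zero rfl rfl

theorem Rm_twist (t : ZMod (p ^ a)) (χ₀ χ : ι) :
    ∑ ψ, D.Rm χ ψ * ∑ s, (ee (p ^ a) (t * s) - 1) * D.N s ψ χ₀ = 0 := by
  classical
  have hn0 : ((p ^ a : ℕ) : ℂ) ≠ 0 := Nat.cast_ne_zero.2 (pow_ne_zero _ hp.out.ne_zero)
  have he0 : (e : ℂ) ≠ 0 := Nat.cast_ne_zero.2 (by have := D.e_one; omega)
  set S : ι → ℂ := fun ψ => ∑ s, (ee (p ^ a) (t * s) - 1) * D.N s ψ χ₀ with hS
  have hP : ∑ ψ, (((p ^ a : ℕ) : ℂ) * (e : ℂ))⁻¹ * (∑ y, D.N y χ ψ) * S ψ = S χ := by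
    simp only [hS, mul_sum, sum_mul]
    rw [sum_comm (γ := ι), sum_congr rfl fun y _ => sum_comm]
    refine sum_congr rfl fun s _ => ?_
    by_cases hs : s = 0
    · simp [hs, D.N_zero]
    calc ∑ y, ∑ ψ, (((p ^ a : ℕ) : ℂ) * (e : ℂ))⁻¹ * D.N y χ ψ * ((ee (p ^ a) (t * s) - 1) * D.N s ψ χ₀)
        = ∑ y, (((p ^ a : ℕ) : ℂ) * (e : ℂ))⁻¹ * (ee (p ^ a) (t * s) - 1) *
            (if y ∈ D.orb s then ((p ^ a : ℕ) : ℂ) * D.N s χ χ₀ else 0) := sum_congr rfl fun y _ => by
          rw [← D.sum_mul_N hs χ χ₀, mul_sum]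
          exact sum_congr rfl fun ψ _ => by ring
      _ = _ := by
          simp only [mul_ite, mul_zero]
          rw [sum_ite_mem, univ_inter, sum_const, D.card_orb hs, nsmul_eq_mul]
          field_simp
  show ∑ ψ, D.Rm χ ψ * S ψ = 0
  calc ∑ ψ, D.Rm χ ψ * S ψ
      = ∑ ψ, ((if χ = ψ then (1 : ℂ) else 0) * S ψ - (((p ^ a : ℕ) : ℂ) * (e : ℂ))⁻¹ * (∑ y, D.N y χ ψ) * S ψ) :=
        sum_congr rfl fun ψ _ => by rw [D.delta χ ψ]; ring
    _ = 0 := by rw [sum_sub_distrib, hP]; simp

/-- With no inertia every member has all its products with itself equal to one. -/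
theorem good_of_one (he : e = 1) {c : ℂ} (hc : c ≠ 0) (hconst : ∀ χ ψ, D.Rm χ ψ = c) (χ : ι) :
    ∀ s, s ≠ 0 → D.N s χ χ = 1 := by
  classical
  subst he
  set n := p ^ a with hn
  have hn0 : (n : ℂ) ≠ 0 := Nat.cast_ne_zero.2 (pow_ne_zero _ hp.out.ne_zero)
  choose z hz using fun t ψ => D.intA t ψ χ
  have hR : D.R = {1} := (eq_of_subset_of_card_le (singleton_subset_iff.2 D.R_one) (by rw [D.R_card, card_singleton])).symm
  have hrow : ∀ t, ∑ ψ, z t ψ = 0 := fun t => by
    have h := D.Rm_twist t χ χ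
    simp only [hz, hconst, ← mul_sum, mul_eq_zero, hc, false_or] at h
    exact_mod_cast h.resolve_left hn0
  have hsq : ∀ t, ∑ ψ, z t ψ * z t ψ = -2 * z t χ := fun t => by
    have hC : (n : ℂ) * (n : ℂ) * ∑ x, (z t x : ℂ) * (z t x : ℂ) = (n : ℂ) * (n : ℂ) * (-2 * (z t χ : ℂ)) := by
      calc (n : ℂ) * (n : ℂ) * ∑ x, (z t x : ℂ) * (z t x : ℂ)
          = ∑ x, (∑ s, (ee n (t * s) - 1) * D.N s x χ) * conj (∑ s, (ee n (t * s) - 1) * D.N s x χ) := by
            rw [mul_sum]
            exact sum_congr rfl fun x _ => by rw [hz, map_mul, Complex.conj_natCast, map_intCast]; ring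
        _ = ∑ s, ∑ y, (ee n (t * s) - 1) * (ee n (-(t * y)) - 1) * ∑ x, D.N y χ x * D.N s x χ := by
            simp only [map_sum, sum_mul_sum, map_mul, map_sub, map_one, conj_ee, D.N_conj]
            rw [sum_comm]
            refine sum_congr rfl fun s _ => ?_
            rw [sum_comm]
            refine sum_congr rfl fun y _ => ?_
            rw [mul_sum]
            exact sum_congr rfl fun x _ => by ring
        _ = ∑ s, (n : ℂ) * (-((ee n (t * s) - 1) * D.N s χ χ) - conj ((ee n (t * s) - 1) * D.N s χ χ)) := by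
            refine sum_congr rfl fun s _ => ?_
            by_cases hs : s = 0
            · simp [hs]
            rw [sum_congr rfl fun y _ => by rw [D.sum_mul_N hs χ χ]]
            simp only [mul_ite, mul_zero]
            rw [sum_ite_mem, univ_inter, orb, hR, image_singleton, one_mul, sum_singleton, map_mul (starRingEnd ℂ),
              map_sub (starRingEnd ℂ), map_one (starRingEnd ℂ),
              conj_ee, D.N_conj]
            have h1 : ee n (t * s) * ee n (-(t * s)) = 1 := by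
              rw [← AddChar.map_add_eq_mul, add_neg_cancel, AddChar.map_zero_eq_one]
            linear_combination ((n : ℂ) * D.N s χ χ) * h1
        _ = _ := by
            rw [← mul_sum, sum_sub_distrib, sum_neg_distrib, ← map_sum, hz, map_mul (starRingEnd ℂ), Complex.conj_natCast, map_intCast]
            ring
    exact_mod_cast mul_left_cancel₀ (mul_ne_zero hn0 hn0) hC
  have hne : ∀ t, t ≠ 0 → z t χ = -1 := by
    intro t ht
    have h1 : z t χ * z t χ ≤ -2 * z t χ := hsq t ▸ single_le_sum (f := fun ψ => z t ψ * z t ψ)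
      (fun ψ _ => mul_self_nonneg _) (mem_univ χ)
    have h2 : z t χ = -2 ∨ z t χ = -1 ∨ z t χ = 0 := by
      have : -2 ≤ z t χ := by nlinarith
      have : z t χ ≤ 0 := by nlinarith
      omega
    have h3 : ∀ k, (k = -2 ∨ k = 0) → z t χ = k → ∀ ψ, ψ ≠ χ → z t ψ = 0 := by
      intro k hk hzk ψ hψ
      have h := hsq t
      rw [← add_sum_erase _ _ (mem_univ χ), hzk] at h
      have h0 : ∑ x ∈ univ.erase χ, z t x * z t x = 0 := by rcases hk with rfl | rfl <;> linarith
      exact mul_self_eq_zero.1 ((sum_eq_zero_iff_of_nonneg fun x _ => mul_self_nonneg _).1 h0 ψ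
        (mem_erase.2 ⟨hψ, mem_univ _⟩))
    rcases h2 with h2 | h2 | h2
    · have h := hrow t
      rw [sum_eq_single χ (fun ψ _ hψ => h3 _ (Or.inl rfl) h2 ψ hψ) (by simp), h2] at h
      norm_num at h
    · exact h2
    · exfalso
      have h := congrArg Complex.re (hz t χ)
      rw [h2, Int.cast_zero, mul_zero, Complex.zero_re, Complex.re_sum] at h
      have hle : ∀ s ∈ (univ : Finset (ZMod n)), ((ee n (t * s) - 1) * D.N s χ χ).re ≤ 0 := fun s _ => by
        by_cases hs : s = 0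
        · simp [hs, D.N_zero]
        rw [D.N_self_im s χ, Complex.re_mul_ofReal, Complex.sub_re, Complex.one_re]
        refine mul_nonpos_of_nonpos_of_nonneg (sub_nonpos.2 ?_) (D.N_self_pos hs χ).le
        have hnorm : ‖ee n (t * s)‖ = 1 := Complex.norm_eq_one_of_pow_eq_one (n := n) (by
          rw [← AddChar.map_nsmul_eq_pow, nsmul_eq_mul, ZMod.natCast_self, zero_mul, AddChar.map_zero_eq_one])
          (NeZero.ne n)
        exact (Complex.re_le_norm _).trans hnorm.le
      have hall : ∀ s, ee n (t * s) = 1 := fun s => by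
        by_cases hs : s = 0
        · simp [hs]
        have h' := (sum_eq_zero_iff_of_nonpos hle).1 h s (mem_univ s)
        rw [D.N_self_im s χ, Complex.re_mul_ofReal, Complex.sub_re, Complex.one_re, mul_eq_zero,
          sub_eq_zero] at h'
        have hre := h'.resolve_right (D.N_self_pos hs χ).ne'
        have hnorm : ‖ee n (t * s)‖ = 1 := Complex.norm_eq_one_of_pow_eq_one (n := n) (by
          rw [← AddChar.map_nsmul_eq_pow, nsmul_eq_mul, ZMod.natCast_self, zero_mul, AddChar.map_zero_eq_one])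
          (NeZero.ne n)
        exact Complex.ext hre (by
          have hsq : Complex.normSq (ee n (t * s)) = 1 := by rw [Complex.normSq_eq_norm_sq, hnorm, one_pow]
          rw [Complex.normSq_apply, hre] at hsq
          simp only [Complex.one_im]
          nlinarith)
      have hsum := D.sum_ee t
      rw [if_neg ht, sum_congr rfl fun s _ => hall s] at hsum
      simp at hsum
      exact (pow_pos hp.out.pos a).ne' hsum
  intro s hs
  have h := D.eq_zero_of_fourier (fun s => if s = 0 then 0 else D.N s χ χ - 1) (fun t => ?_) hs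
  · rwa [if_neg hs, sub_eq_zero] at h
  by_cases ht : t = 0
  · simp [ht]
  have e1 : ∀ s, (ee n (t * s) - 1) * (if s = 0 then 0 else D.N s χ χ - 1) =
      (ee n (t * s) - 1) * D.N s χ χ - (ee n (t * s) - 1) := fun s => by
    split_ifs with h0
    · simp [h0]
    · ring
  rw [sum_congr rfl fun s _ => e1 s, sum_sub_distrib, hz t χ, hne t ht, sum_sub_distrib, D.sum_ee, if_neg ht, sum_const,
    card_univ, ZMod.card, nsmul_eq_mul, hn]
  push_cast
  ring

/-- The integer vectors. -/
theorem exists_vectors (χ₀ : ι) (hgood : ∀ s, s ≠ 0 → D.N s χ₀ χ₀ = 1) : ∃ v : Orb D.R → ι → ℤ,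
    e * Fintype.card (Orb D.R) + 1 = p ^ a ∧
    (∀ i j, ∑ x, v i x * v j x = (if i = j then 1 else 0) + (e : ℤ)) ∧
    (∀ x, ∃ i, v i x ≠ 0) ∧
    (∀ i χ, ∑ ψ, D.Rm χ ψ * (v i ψ : ℂ) = 0) ∧
    (∀ u : ι → ℤ, (∀ i, ∑ ψ, v i ψ * u ψ = 0) → ∀ χ, ∑ ψ, D.Rm χ ψ * (u ψ : ℂ) = (u χ : ℂ)) ∧
    ∀ s, s ≠ 0 → ∀ χ, D.N s χ χ₀ = ∑ O, lam O s * (v O χ : ℂ) := by
  classical
  set n := p ^ a with hn
  have hn0 : (n : ℂ) ≠ 0 := Nat.cast_ne_zero.2 (pow_ne_zero _ hp.out.ne_zero)
  have he0 : (e : ℂ) ≠ 0 := Nat.cast_ne_zero.2 (by have := D.e_one; omega)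
  choose zA hzA using fun t ψ => D.intA t ψ χ₀
  let Js : Finset (Finset (ZMod n)) := (univ.erase 0).image D.orb
  have hrep : ∀ O : Js, ∃ x, x ≠ 0 ∧ D.orb x = O.1 := fun O => by
    obtain ⟨x, hx, hO⟩ := mem_image.1 O.2
    exact ⟨x, ne_of_mem_erase hx, hO⟩
  choose rep hrep0 hrepO using hrep
  refine ⟨fun O ψ => zA (rep O) ψ, ?_, ?_, ?_, ?_, ?_, ?_⟩
  · have hfib : ∀ O ∈ Js, ((univ.erase (0 : ZMod n)).filter fun x => D.orb x = O).card = e := by
      intro O hO
      obtain ⟨x, hx, rfl⟩ := mem_image.1 hO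
      have hx0 := ne_of_mem_erase hx
      refine (congrArg Finset.card (Finset.ext fun y => ?_)).trans (D.card_orb hx0)
      simp only [mem_filter, mem_erase, mem_univ, and_true]
      refine ⟨fun h => h.2 ▸ D.self_mem_orb y, fun h => ?_⟩
      obtain ⟨r, hr, rfl⟩ := mem_image.1 h
      exact ⟨D.R_unit hr hx0, D.orb_eq (D.R_unit hr hx0) hx0 h⟩
    have h := card_eq_sum_card_image D.orb (univ.erase (0 : ZMod n))
    rw [sum_congr rfl hfib, sum_const, smul_eq_mul, card_erase_of_mem (mem_univ _), card_univ, ZMod.card] at h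
    have : 0 < n := pow_pos hp.out.pos _
    rw [Fintype.card_coe]
    rw [mul_comm] at h
    simp only [Js] at h ⊢
    change e * (((univ.erase (0 : ZMod n)).image D.orb)).card + 1 = n
    omega
  · intro O O'
    set t := rep O with ht
    set t' := rep O' with ht'
    have hC : (n : ℂ) * (n : ℂ) * ∑ x, (zA t x : ℂ) * (zA t' x : ℂ) =
        (n : ℂ) * (n : ℂ) * (((D.R.filter fun r => t = r * t').card : ℂ) + (e : ℂ)) := by
      calc (n : ℂ) * (n : ℂ) * ∑ x, (zA t x : ℂ) * (zA t' x : ℂ)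
          = ∑ x, (∑ s, (ee n (t * s) - 1) * D.N s x χ₀) * conj (∑ s, (ee n (t' * s) - 1) * D.N s x χ₀) := by
            rw [mul_sum]
            exact sum_congr rfl fun x _ => by rw [hzA, hzA, map_mul, Complex.conj_natCast, map_intCast]; ring
        _ = ∑ s, ∑ y, (ee n (t * s) - 1) * (ee n (-(t' * y)) - 1) * ∑ x, D.N y χ₀ x * D.N s x χ₀ := by
            simp only [map_sum, sum_mul_sum, map_mul, map_sub, map_one, conj_ee, D.N_conj]
            rw [sum_comm]
            refine sum_congr rfl fun s _ => ?_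
            rw [sum_comm]
            refine sum_congr rfl fun y _ => ?_
            rw [mul_sum]
            exact sum_congr rfl fun x _ => by ring
        _ = ∑ s, ∑ r ∈ D.R, (n : ℂ) * ((ee n (t * s) - 1) * (ee n (-(t' * (r * s))) - 1)) := by
            refine sum_congr rfl fun s _ => ?_
            by_cases hs : s = 0
            · simp [hs]
            rw [sum_congr rfl fun y _ => by rw [D.sum_mul_N hs χ₀ χ₀], hgood s hs]
            simp only [mul_ite, mul_zero, mul_one]
            rw [sum_ite_mem, univ_inter]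
            rw [orb, sum_image fun r hr r' hr' h => D.R_free r hr r' hr' s hs h]
            exact sum_congr rfl fun r _ => by ring
        _ = ∑ r ∈ D.R, (n : ℂ) * ((n : ℂ) * ((if t = r * t' then 1 else 0) + 1)) := by
            rw [sum_comm]
            refine sum_congr rfl fun r hr => ?_
            rw [← mul_sum]
            congr 1
            have e1 : ∀ s, (ee n (t * s) - 1) * (ee n (-(t' * (r * s))) - 1) =
                ee n ((t - r * t') * s) - ee n (t * s) - ee n ((-(r * t')) * s) + 1 := fun s => by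
              rw [show (t - r * t') * s = t * s + -(t' * (r * s)) by ring,
                show (-(r * t')) * s = -(t' * (r * s)) by ring, AddChar.map_add_eq_mul]
              ring
            rw [sum_congr rfl fun s _ => e1 s, sum_add_distrib, sum_sub_distrib, sum_sub_distrib, D.sum_ee,
              D.sum_ee, D.sum_ee, if_neg (hrep0 O), if_neg (neg_ne_zero.2 (D.R_unit hr (hrep0 O'))), sum_const,
              card_univ, ZMod.card, nsmul_eq_mul, mul_one, if_congr sub_eq_zero rfl rfl]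
            split_ifs <;> ring
        _ = _ := by
            rw [← mul_sum, ← mul_sum, sum_add_distrib, sum_const, D.R_card, sum_boole, nsmul_eq_mul, mul_one]
            ring
    have h2 := mul_left_cancel₀ (mul_ne_zero hn0 hn0) hC
    have hcnt : (D.R.filter fun r => t = r * t').card = if O = O' then 1 else 0 := by
      split_ifs with h
      · subst h
        rw [card_eq_one]
        refine ⟨1, eq_singleton_iff_unique_mem.2 ⟨mem_filter.2 ⟨D.R_one, (one_mul _).symm⟩, fun r hr => ?_⟩⟩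
        obtain ⟨hr, he⟩ := mem_filter.1 hr
        exact D.R_free r hr 1 D.R_one t (hrep0 O) (by rw [one_mul]; exact he.symm)
      · rw [card_eq_zero, filter_eq_empty_iff]
        intro r hr he
        refine h (Subtype.ext ?_)
        rw [← hrepO O, ← hrepO O', ← ht, ← ht']
        exact D.orb_eq (hrep0 O) (hrep0 O') (mem_image.2 ⟨r, hr, he.symm⟩)
    rw [hcnt] at h2
    rw [← Int.cast_inj (α := ℂ)]
    split_ifs at h2 ⊢ <;> push_cast at h2 ⊢ <;> exact h2
  · intro ψ
    by_contra hcon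
    push Not at hcon
    have hall : ∀ t, ∑ s, (ee n (t * s) - 1) * D.N s ψ χ₀ = 0 := by
      intro t
      by_cases ht : t = 0
      · simp [ht]
      set O : Js := ⟨D.orb t, mem_image.2 ⟨t, mem_erase.2 ⟨ht, mem_univ _⟩, rfl⟩⟩ with hO
      have hmem : t ∈ D.orb (rep O) := by rw [hrepO O]; exact D.self_mem_orb t
      obtain ⟨r, hr, hrt⟩ := mem_image.1 hmem
      have h0 : ∑ s, (ee n (rep O * s) - 1) * D.N s ψ χ₀ = 0 := by rw [hzA, hcon O]; simp
      rw [← h0]
      have hinj : Function.Injective (fun s : ZMod n => r * s) := fun s s' h => D.R_cancel hr h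
      refine Fintype.sum_bijective _ (Finite.injective_iff_bijective.1 hinj) _ _ fun s => ?_
      rw [D.N_stab r hr, show rep O * (r * s) = t * s by rw [← hrt]; ring]
    have h1 : (1 : ZMod n) ≠ 0 := by
      haveI : Fact (1 < n) := ⟨Nat.one_lt_pow (by have := D.a_pos; omega) hp.out.one_lt⟩
      exact one_ne_zero
    have h2 := D.eq_zero_of_fourier (fun s => D.N s ψ χ₀) hall h1
    have h3 := D.rank1 1 ψ χ₀ χ₀ ψ
    simp only [h2, zero_mul, hgood 1 h1, mul_one] at h3
    exact D.N_ne 1 h1 ψ h3.symm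
  · intro O χ
    refine mul_left_cancel₀ hn0 ?_
    rw [mul_zero, mul_sum]
    set t := rep O
    have hv : ∀ ψ, (n : ℂ) * (zA t ψ : ℂ) = ∑ s, (ee n (t * s) - 1) * D.N s ψ χ₀ := fun ψ => (hzA t ψ).symm
    have hP : ∑ ψ, ((n : ℂ) * (e : ℂ))⁻¹ * (∑ y, D.N y χ ψ) * ((n : ℂ) * (zA t ψ : ℂ)) = (n : ℂ) * (zA t χ : ℂ) := by
      rw [hv χ]
      simp only [hv, mul_sum, sum_mul]
      rw [sum_comm (γ := ι), sum_congr rfl fun y _ => sum_comm]
      refine sum_congr rfl fun s _ => ?_
      by_cases hs : s = 0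
      · simp [hs]
      calc ∑ y, ∑ ψ, ((n : ℂ) * (e : ℂ))⁻¹ * D.N y χ ψ * ((ee n (t * s) - 1) * D.N s ψ χ₀)
          = ∑ y, ((n : ℂ) * (e : ℂ))⁻¹ * (ee n (t * s) - 1) *
              (if y ∈ D.orb s then (n : ℂ) * D.N s χ χ₀ else 0) := sum_congr rfl fun y _ => by
            rw [← D.sum_mul_N hs χ χ₀, mul_sum]
            exact sum_congr rfl fun ψ _ => by ring
        _ = _ := by
            simp only [mul_ite, mul_zero]
            rw [sum_ite_mem, univ_inter, sum_const, D.card_orb hs, nsmul_eq_mul]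
            field_simp
    calc ∑ ψ, (n : ℂ) * (D.Rm χ ψ * (zA t ψ : ℂ))
        = ∑ ψ, ((if χ = ψ then (1 : ℂ) else 0) * ((n : ℂ) * (zA t ψ : ℂ)) -
            ((n : ℂ) * (e : ℂ))⁻¹ * (∑ y, D.N y χ ψ) * ((n : ℂ) * (zA t ψ : ℂ))) :=
          sum_congr rfl fun ψ _ => by rw [D.delta χ ψ]; ring
      _ = 0 := by rw [sum_sub_distrib, hP]; simp
  · intro u hu χ
    have hc : ∀ t, ∑ s, (ee n (t * s) - 1) * ∑ ψ, D.N s ψ χ₀ * (u ψ : ℂ) = 0 := by
      intro t
      by_cases ht : t = 0
      · simp [ht]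
      set O : Js := ⟨D.orb t, mem_image.2 ⟨t, mem_erase.2 ⟨ht, mem_univ _⟩, rfl⟩⟩ with hO
      have hmem : t ∈ D.orb (rep O) := by rw [hrepO O]; exact D.self_mem_orb t
      obtain ⟨r, hr, hrt⟩ := mem_image.1 hmem
      have h0 : ∑ s, (ee n (rep O * s) - 1) * ∑ ψ, D.N s ψ χ₀ * (u ψ : ℂ) = 0 := by
        simp only [mul_sum]
        rw [sum_comm]
        have h := congrArg (fun z : ℤ => (n : ℂ) * (z : ℂ)) (hu O)
        push_cast at h
        rw [mul_zero, mul_sum] at h
        rw [← h]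
        refine sum_congr rfl fun ψ _ => ?_
        rw [← mul_assoc, ← hzA, sum_mul]
        exact sum_congr rfl fun s _ => by ring
      rw [← h0]
      have hinj : Function.Injective (fun s : ZMod n => r * s) := fun s s' h => D.R_cancel hr h
      refine Fintype.sum_bijective _ (Finite.injective_iff_bijective.1 hinj) _ _ fun s => ?_
      rw [D.N_stab r hr, show rep O * (r * s) = t * s by rw [← hrt]; ring]
    have hzero : ∀ s, ∑ ψ, D.N s χ ψ * (u ψ : ℂ) = 0 := by
      intro s
      by_cases hs : s = 0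
      · simp [hs, D.N_zero]
      have h := congrArg conj (D.eq_zero_of_fourier _ hc hs)
      simp only [map_sum, map_mul, map_intCast, map_zero, D.N_conj] at h
      have h2 : ∀ ψ, D.N s χ ψ = D.N s χ χ₀ * D.N s χ₀ ψ := fun ψ => by
        rw [D.rank1 s χ χ₀ χ₀ ψ, hgood s hs, mul_one]
      rw [sum_congr rfl fun ψ _ => by rw [h2 ψ, mul_assoc], ← mul_sum, h, mul_zero]
    calc ∑ ψ, D.Rm χ ψ * (u ψ : ℂ)
        = ∑ ψ, ((if χ = ψ then (1 : ℂ) else 0) * (u ψ : ℂ) -
            ((n : ℂ) * (e : ℂ))⁻¹ * ∑ s, D.N s χ ψ * (u ψ : ℂ)) :=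
          sum_congr rfl fun ψ _ => by rw [← sum_mul, D.delta χ ψ]; ring
      _ = (u χ : ℂ) := by
          rw [sum_sub_distrib, ← mul_sum, sum_comm, sum_eq_zero fun s _ => hzero s]
          simp
  · intro s hs χ
    refine mul_left_cancel₀ hn0 ?_
    have hfour : ∑ t, ee n (-(t * s)) * ((n : ℂ) * (zA t χ : ℂ)) = (n : ℂ) * D.N s χ χ₀ := by
      rw [sum_congr rfl fun t _ => by rw [← hzA t χ, mul_sum], sum_comm,
        sum_congr rfl (g := fun y => ((if y = s then (n : ℂ) else 0) - (if s = 0 then (n : ℂ) else 0)) * D.N y χ χ₀)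
          fun y _ => ?_]
      · simp [hs]
      · rw [sum_congr rfl (g := fun t => (ee n (t * (y - s)) - ee n (t * (-s))) * D.N y χ χ₀) fun t _ => ?_, ← sum_mul,
          sum_sub_distrib, D.sum_ee', D.sum_ee']
        · congr 2
          · exact if_congr sub_eq_zero rfl rfl
          · exact if_congr neg_eq_zero rfl rfl
        rw [mul_sub t, mul_neg, sub_eq_add_neg (t * y), AddChar.map_add_eq_mul]
        ring
    rw [← hfour, mul_sum, ← sum_erase_add _ _ (mem_univ (0 : ZMod n))]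
    have hz0 : (n : ℂ) * (zA 0 χ : ℂ) = 0 := by rw [← hzA 0 χ]; simp
    rw [hz0, mul_zero, add_zero]
    have himg : ∀ O : Finset (ZMod n), O ∈ Js → ∀ t, t ∈ (univ.erase (0 : ZMod n)).filter (fun t => D.orb t = O) ↔ t ∈ O := by
      intro O hO t
      obtain ⟨x, hx, rfl⟩ := mem_image.1 hO
      have hx0 := ne_of_mem_erase hx
      simp only [mem_filter, mem_erase, mem_univ, and_true]
      refine ⟨fun h => h.2 ▸ D.self_mem_orb t, fun h => ?_⟩
      obtain ⟨r, hr, rfl⟩ := mem_image.1 h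
      exact ⟨D.R_unit hr hx0, D.orb_eq (D.R_unit hr hx0) hx0 h⟩
    rw [← sum_fiberwise_of_maps_to (g := D.orb) (t := Js) (fun t ht => mem_image_of_mem _ ht), ← sum_coe_sort Js]
    refine sum_congr rfl fun O _ => ?_
    rw [sum_congr (Finset.ext (himg O.1 O.2)) (fun _ _ => rfl)]
    show _ = _ * ((∑ t ∈ O.1, ee n (-(t * s))) * _)
    rw [sum_mul, mul_sum]
    refine sum_congr rfl fun t ht => ?_
    have hmem : t ∈ D.orb (rep O) := by rw [hrepO O]; exact ht
    obtain ⟨r, hr, hrt⟩ := mem_image.1 hmem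
    have hinj : Function.Injective (fun y : ZMod n => r * y) := fun y y' h => D.R_cancel hr h
    have hz : (n : ℂ) * (zA t χ : ℂ) = (n : ℂ) * (zA (rep O) χ : ℂ) := by
      rw [← hzA, ← hzA]
      refine Fintype.sum_bijective _ (Finite.injective_iff_bijective.1 hinj) _ _ fun y => ?_
      rw [D.N_stab r hr, show rep O * (r * y) = t * y by rw [← hrt]; ring]
    rw [hz]
    ring

end PreCols

end CfsgLib.CyclicExc
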